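/-
Kernel-evaluated parts of the certificate for the triple cover of `J₃`.
-/
import Cfsg.Agent.Janko3.Defs

set_option autoImplicit false
set_option maxRecDepth 100000
set_option Elab.async false

namespace Cfsg.Agent.Janko3

open Cfsg.Agent.Janko1 (allFrom allFrom_zero allFrom_split)

theorem hp_part5 : allFrom hTest 4080 816 = true := by decide +kernel

theorem hp_part6 : allFrom hTest 4896 816 = true := by decide +kernel

theorem hp_part7 : allFrom hTest 5712 816 = true := by decide +kernel

theorem hp_part8 : allFrom hTest 6528 816 = true := by decide +kernel

theorem hp_part9 : allFrom hTest 7344 816 = true := by decide +kernel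


end Cfsg.Agent.Janko3
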