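/-
Kernel-evaluated parts of the certificate for the triple cover of `J₃`.
-/
import Cfsg.Agent.Janko3.Defs
import Cfsg.Agent.Janko3.ChecksHP0
import Cfsg.Agent.Janko3.ChecksHP1

set_option autoImplicit false
set_option maxRecDepth 100000
set_option Elab.async false

namespace Cfsg.Agent.Janko3

open Cfsg.Agent.Janko1 (allFrom allFrom_zero allFrom_split)

private theorem join {f : ℕ → Bool} {a b n : ℕ} (h1 : allFrom f 0 a = true) (h2 : allFrom f a b = true)
    (e : a + b = n) : allFrom f 0 n = true := e ▸ allFrom_split h1 h2

private theorem count_eq : numH = 8160 := by decide +kernel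

theorem h_ok : allFrom hTest 0 numH = true := by
  rw [count_eq]
  exact (join (n := 8160) (join (n := 7344) (join (n := 6528) (join (n := 5712) (join (n := 4896) (join (n := 4080) (join (n := 3264) (join (n := 2448) (join (n := 1632) hp_part0
    hp_part1 rfl)
    hp_part2 rfl)
    hp_part3 rfl)
    hp_part4 rfl)
    hp_part5 rfl)
    hp_part6 rfl)
    hp_part7 rfl)
    hp_part8 rfl)
    hp_part9 rfl)

end Cfsg.Agent.Janko3
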