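/-
The tests for the isotropic lines of the natural module of the triple cover of `J₃`.
-/
import Cfsg.Agent.Janko3.Defs
import Cfsg.Agent.Janko3.DataIso

set_option autoImplicit false

namespace Cfsg.Agent.Janko3

open Cfsg.Agent.Janko1 (allFrom)

/-- The number of isotropic lines. -/
def numIso : ℕ := 43605

/-- The code of an isotropic line. -/
def isoCode (i : ℕ) : ℕ := isoInfo i % 262144

/-- The column matrix of a vector code. -/
def colM (n : ℕ) : M4 := ⟨spreadTab (n % 512), spreadTab (n / 512 % 512)⟩

/-- Multiplication of a vector code by `ω`. -/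
def wN (n : ℕ) : ℕ := n / 512 + 512 * Nat.xor (n % 512) (n / 512)

/-- An isotropic nonzero vector, least among its multiples. -/
def goodN (n : ℕ) : Bool :=
  Nat.beq (Nat.land (Nat.shiftRight parMask (Nat.lor (n % 512) (n / 512))) 1) 1 &&
    Nat.ble n (wN n) && Nat.ble n (wN (wN n))

/-- Test of a line: where it comes from, and no good code lies between it and the one before. -/
def isoTest (i : ℕ) : Bool :=
  (bif Nat.beq i isoOne then true
   else Nat.blt (isoInfo i / 134217728) numIso &&
    Nat.blt (isoInfo (isoInfo i / 134217728) / 2097152 % 64) (isoInfo i / 2097152 % 64) &&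
    eqSc (isoInfo i / 524288 % 4) (colM (isoCode i))
      (mulM (gM (isoInfo i / 262144 % 2)) (colM (isoCode (isoInfo i / 134217728))))) &&
  (bif Nat.beq i 0 then allFrom (fun n => !goodN n) 0 (isoCode 0)
   else Nat.blt (isoCode (i - 1)) (isoCode i) &&
    allFrom (fun n => !goodN n) (isoCode (i - 1) + 1) (isoCode i - isoCode (i - 1) - 1))

/-- Test of the codes above the last line. -/
def isoTail : Bool :=
  Nat.blt isoOne numIso && Nat.blt (isoCode (numIso - 1)) 262144 &&
    allFrom (fun n => !goodN n) (isoCode (numIso - 1) + 1) (262144 - isoCode (numIso - 1) - 1)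

/-- Test of the spreading table. -/
def spreadTest (r : ℕ) : Bool :=
  allFrom (fun i => (spreadTab r).testBit (9 * i) == r.testBit i) 0 9

/-- The conjugate of a two-bit entry. -/
def conj4 (n : ℕ) : ℕ := if n = 2 then 3 else if n = 3 then 2 else n

end Cfsg.Agent.Janko3
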