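/-
Kernel-evaluated parts of the certificate for the triple cover of `J₃`.
-/
import Cfsg.Agent.Janko3.IsoDefs

set_option autoImplicit false
set_option maxRecDepth 100000
set_option Elab.async false

namespace Cfsg.Agent.Janko3

open Cfsg.Agent.Janko1 (allFrom allFrom_zero allFrom_split)

theorem isop_part0 : allFrom isoTest 0 2726 = true := by decide +kernel

theorem isop_part1 : allFrom isoTest 2726 2726 = true := by decide +kernel

theorem isop_part2 : allFrom isoTest 5452 2726 = true := by decide +kernel

theorem isop_part3 : allFrom isoTest 8178 2726 = true := by decide +kernel


end Cfsg.Agent.Janko3
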