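/-
Kernel-evaluated parts of the certificate for the triple cover of `J₃`.
-/
import Cfsg.Agent.Janko3.IsoDefs

set_option autoImplicit false
set_option maxRecDepth 100000
set_option Elab.async false

namespace Cfsg.Agent.Janko3

open Cfsg.Agent.Janko1 (allFrom allFrom_zero allFrom_split)

theorem isop_part4 : allFrom isoTest 10904 2726 = true := by decide +kernel

theorem isop_part5 : allFrom isoTest 13630 2726 = true := by decide +kernel

theorem isop_part6 : allFrom isoTest 16356 2726 = true := by decide +kernel

theorem isop_part7 : allFrom isoTest 19082 2726 = true := by decide +kernel


end Cfsg.Agent.Janko3
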