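/-
Kernel-evaluated parts of the certificate for the triple cover of `J₃`.
-/
import Cfsg.Agent.Janko3.IsoDefs

set_option autoImplicit false
set_option maxRecDepth 100000
set_option Elab.async false

namespace Cfsg.Agent.Janko3

open Cfsg.Agent.Janko1 (allFrom allFrom_zero allFrom_split)

theorem isop_part12 : allFrom isoTest 32712 2726 = true := by decide +kernel

theorem isop_part13 : allFrom isoTest 35438 2726 = true := by decide +kernel

theorem isop_part14 : allFrom isoTest 38164 2726 = true := by decide +kernel

theorem isop_part15 : allFrom isoTest 40890 2715 = true := by decide +kernel


end Cfsg.Agent.Janko3
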