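/-
Kernel-evaluated parts of the certificate for the triple cover of `J₃`.
-/
import Cfsg.Agent.Janko3.IsoDefs
import Cfsg.Agent.Janko3.ChecksISOP0
import Cfsg.Agent.Janko3.ChecksISOP1
import Cfsg.Agent.Janko3.ChecksISOP2
import Cfsg.Agent.Janko3.ChecksISOP3

set_option autoImplicit false
set_option maxRecDepth 100000
set_option Elab.async false

namespace Cfsg.Agent.Janko3

open Cfsg.Agent.Janko1 (allFrom allFrom_zero allFrom_split)

private theorem join {f : ℕ → Bool} {a b n : ℕ} (h1 : allFrom f 0 a = true) (h2 : allFrom f a b = true)
    (e : a + b = n) : allFrom f 0 n = true := e ▸ allFrom_split h1 h2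

private theorem count_eq : numIso = 43605 := by decide +kernel

theorem iso_ok : allFrom isoTest 0 numIso = true := by
  rw [count_eq]
  exact (join (n := 43605) (join (n := 40890) (join (n := 38164) (join (n := 35438) (join (n := 32712) (join (n := 29986) (join (n := 27260) (join (n := 24534) (join (n := 21808) (join (n := 19082) (join (n := 16356) (join (n := 13630) (join (n := 10904) (join (n := 8178) (join (n := 5452) isop_part0
    isop_part1 rfl)
    isop_part2 rfl)
    isop_part3 rfl)
    isop_part4 rfl)
    isop_part5 rfl)
    isop_part6 rfl)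
    isop_part7 rfl)
    isop_part8 rfl)
    isop_part9 rfl)
    isop_part10 rfl)
    isop_part11 rfl)
    isop_part12 rfl)
    isop_part13 rfl)
    isop_part14 rfl)
    isop_part15 rfl)

theorem iso_tail : isoTail = true := by decide +kernel

theorem spread_ok : allFrom spreadTest 0 512 = true := by decide +kernel

theorem parity_ok : ∀ s : Fin 512, parMask.testBit (s : ℕ) =
    decide ((s : ℕ) ≠ 0 ∧ (Finset.univ.filter fun i : Fin 9 => (s : ℕ).testBit (i : ℕ) = true).card % 2 = 0) := by
  decide +kernel

end Cfsg.Agent.Janko3
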