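/-
Kernel-evaluated: the inverse of each defining generator is its conjugate transpose.
-/
import Cfsg.Agent.Janko3.Gens
import Cfsg.Agent.Janko3.IsoDefs

set_option autoImplicit false
set_option maxRecDepth 100000

namespace Cfsg.Agent.Janko3

open Cfsg.Spor

theorem unitary_ok : ∀ n : Fin 43, ∀ z w : F9, ent4 (dec (genInv n)) z w = conj4 (ent4 (sM n) w z) := by
  decide +kernel

end Cfsg.Agent.Janko3
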