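/-
The orbits of the triple cover of `J₃` on lines of its natural module.
-/
import Cfsg.Agent.Janko3.Simple
import Cfsg.Agent.Janko3.ChecksI
import Mathlib.LinearAlgebra.Span.Basic
import Mathlib.Data.Nat.Bitwise

set_option autoImplicit false

namespace Cfsg.Agent.Janko3

open Cfsg.Spor
open Matrix
open Cfsg.Agent.Janko1 (allFrom allFrom_zero allFrom_iff)

variable {F : Type*} [Field F] [d : F4Data F]

local notation "ω" => (F4Data.w : F)

/-- The first basis vector. -/
abbrev e0 (F : Type*) [Field F] [F4Data F] : F9 → F := Pi.single (0 : F9) (1 : F)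

theorem P0_apply (z w : F9) : P0 F z w = if z = 0 ∧ w = 0 then (1 : F) else 0 := mat_e00_apply z w

theorem P0_mulVec : P0 F *ᵥ e0 F = e0 F := by
  rw [Matrix.mulVec_single_one]
  funext z
  show P0 F z 0 = _
  rw [P0_apply]
  by_cases h : z = 0
  · subst h; simp
  · simp [h]

theorem mul_P0_apply (M : Matrix F9 F9 F) (z w : F9) : (M * P0 F) z w = if w = 0 then (M *ᵥ e0 F) z else 0 := by
  rw [Matrix.mul_apply, Matrix.mulVec_single_one]
  by_cases h : w = 0
  · rw [if_pos h, Finset.sum_eq_single 0]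
    · rw [P0_apply, if_pos ⟨rfl, h⟩, mul_one]; rfl
    · intro b _ hb; rw [P0_apply, if_neg (fun e => hb e.1), mul_zero]
    · simp
  · rw [if_neg h]
    exact Finset.sum_eq_zero fun b _ => by rw [P0_apply, if_neg (fun e => h e.2), mul_zero]

theorem col_smul_iff (M N : Matrix F9 F9 F) (x : F) :
    M * P0 F = x • (N * P0 F) ↔ M *ᵥ e0 F = x • (N *ᵥ e0 F) := by
  constructor
  · intro h
    have e := congrArg (fun K : Matrix F9 F9 F => K *ᵥ e0 F) h
    simpa only [Matrix.smul_mulVec, ← Matrix.mulVec_mulVec, P0_mulVec] using e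
  · intro h
    ext z w
    rw [Matrix.smul_apply, mul_P0_apply, mul_P0_apply, h]
    split_ifs <;> simp

theorem line_eq_iff {v w : F9 → F} : F ∙ v = F ∙ w ↔ ∃ x : F, x ≠ 0 ∧ v = x • w := by
  rw [Submodule.span_singleton_eq_span_singleton]
  constructor
  · rintro ⟨u, hu⟩
    exact ⟨(u : F)⁻¹, inv_ne_zero u.ne_zero, by rw [← hu]; show v = (u : F)⁻¹ • ((u : F) • v); rw [inv_smul_smul₀ u.ne_zero]⟩
  · rintro ⟨x, hx, e⟩
    exact ⟨Units.mk0 x⁻¹ (inv_ne_zero hx), by show x⁻¹ • v = w; rw [e, inv_smul_smul₀ hx]⟩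

theorem orbit_lines :
    {L : Submodule F (F9 → F) | ∃ g ∈ G3 F, L = F ∙ (um g *ᵥ e0 F)}.ncard = 23256 := by
  have h : {L : Submodule F (F9 → F) | ∃ g ∈ G3 F, L = F ∙ (um g *ᵥ e0 F)} =
      Set.range fun i : Fin numT => F ∙ (mat F (tM i) *ᵥ e0 F) := by
    ext L
    constructor
    · rintro ⟨g, hg, rfl⟩
      obtain ⟨x, hx, i, hi, m, hm, e⟩ := (mem_G3_iff g).1 hg
      obtain ⟨a, ha, ea⟩ := col_image hx hm e
      exact ⟨⟨i, hi⟩, (line_eq_iff.2 ⟨a, ha, (col_smul_iff _ _ _).1 ea⟩).symm⟩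
    · rintro ⟨i, rfl⟩
      obtain ⟨u, hu, eu⟩ := exists_tG (F := F) i.2
      exact ⟨u, hu, by rw [eu]⟩
  rw [h, ← Nat.card_coe_set_eq, Nat.card_range_of_injective, Nat.card_fin, numT]
  intro i j e
  obtain ⟨x, hx, e'⟩ := line_eq_iff.1 e
  exact Fin.ext (line_unique j.2 i.2 hx ((col_smul_iff _ _ _).2 e')).symm

/-- The vector of a code. -/
def vecN (F : Type*) [Field F] [F4Data F] (n : ℕ) : F9 → F :=
  fun z => entF F (F4Data.w : F) ⟨n % 512, n / 512⟩ (ixE z : ℕ)

theorem testBit_div512 (n i : ℕ) : (n / 512).testBit i = n.testBit (i + 9) := by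
  rw [show (512 : ℕ) = 2 ^ 9 by norm_num, Nat.testBit_div_two_pow]

theorem wN_lt {n : ℕ} (h : n < 262144) : wN n < 262144 := by
  have : Nat.xor (n % 512) (n / 512) < 512 :=
    Nat.xor_lt_two_pow (n := 9) (Nat.mod_lt _ (by norm_num)) (Nat.div_lt_of_lt_mul (by omega))
  unfold wN
  omega

theorem wN_parts {n : ℕ} (h : n < 262144) :
    wN n % 512 = n / 512 ∧ wN n / 512 = Nat.xor (n % 512) (n / 512) := by
  unfold wN
  constructor <;> omega

theorem wN_three {n : ℕ} (h : n < 262144) : wN (wN (wN n)) = n := by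
  obtain ⟨a1, b1⟩ := wN_parts h
  obtain ⟨a2, b2⟩ := wN_parts (wN_lt h)
  obtain ⟨a3, b3⟩ := wN_parts (wN_lt (wN_lt h))
  have e : ∀ a b : ℕ, Nat.xor a b = a ^^^ b := fun _ _ => rfl
  have h1 : wN (wN (wN n)) % 512 = n % 512 := by
    rw [a3, b2, a1, b1, e, e, Nat.xor_comm (n / 512), Nat.xor_assoc, Nat.xor_self, Nat.xor_zero]
  have h2 : wN (wN (wN n)) / 512 = n / 512 := by
    rw [b3, b2, a2, b1, a1, e, e, e, ← Nat.xor_assoc, Nat.xor_comm (n % 512 ^^^ n / 512) (n / 512),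
      Nat.xor_assoc (n / 512), Nat.xor_self, Nat.xor_zero]
  rw [← Nat.div_add_mod (wN (wN (wN n))) 512, h1, h2, Nat.div_add_mod]

theorem vecN_wN {n : ℕ} (h : n < 262144) : vecN F (wN n) = ω • vecN F n := by
  funext z
  obtain ⟨a, b⟩ := wN_parts h
  have hw : ω * ω = ω + 1 := by linear_combination d.hw - (ω + 1) * two_eq_zero' (F := F)
  simp only [vecN, entF, a, b, bitF_xor, Pi.smul_apply, smul_eq_mul]
  linear_combination (-(bitF F (n / 512) (ixE z : ℕ))) * hw

theorem exists_code (v : F9 → F) : ∃ n, n < 262144 ∧ vecN F n = v := by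
  choose c hc hv using fun i : Fin 9 => exists_valF (v (ixE.symm i))
  let p := Nat.ofBits fun i : Fin 9 => (c i).testBit 0
  let q := Nat.ofBits fun i : Fin 9 => (c i).testBit 1
  have hp : p < 2 ^ 9 := Nat.ofBits_lt_two_pow _
  have hq : q < 2 ^ 9 := Nat.ofBits_lt_two_pow _
  refine ⟨p + 512 * q, by omega, funext fun z => ?_⟩
  rw [vecN, entF_eq_val, show (p + 512 * q) % 512 = p by omega, show (p + 512 * q) / 512 = q by omega,
    Nat.testBit_ofBits_lt _ _ (ixE z).2, Nat.testBit_ofBits_lt _ _ (ixE z).2]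
  conv_rhs => rw [← ixE.symm_apply_apply z, hv]
  show valF F (((c (ixE z)).testBit 0).toNat + 2 * ((c (ixE z)).testBit 1).toNat) = valF F (c (ixE z))
  congr 1
  have := hc (ixE z)
  generalize c (ixE z) = k at this ⊢
  interval_cases k <;> decide

theorem ent_eq_zero_iff (A : M4) (i : ℕ) : entF F ω A i = 0 ↔ (Nat.lor A.p A.q).testBit i = false := by
  have e : Nat.lor A.p A.q = A.p ||| A.q := rfl
  rw [entF_eq_val, e, Nat.testBit_or]
  have h1 := w_ne_zero (F := F)
  cases A.p.testBit i <;> cases A.q.testBit i <;> simp [valF, h1]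

/-- An isotropic code has a nonempty support of even size. -/
theorem isotropic_parity {n : ℕ} (h : n < 262144) (hne : vecN F n ≠ 0) (hs : ∑ z, (vecN F n z) ^ 3 = 0) :
    Nat.beq (Nat.land (Nat.shiftRight parMask (Nat.lor (n % 512) (n / 512))) 1) 1 = true := by
  classical
  have hlt : Nat.lor (n % 512) (n / 512) < 512 :=
    Nat.or_lt_two_pow (n := 9) (Nat.mod_lt _ (by norm_num)) (Nat.div_lt_of_lt_mul (by omega))
  generalize hS : Nat.lor (n % 512) (n / 512) = s at hlt ⊢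
  have hz : ∀ i : Fin 9, vecN F n (ixE.symm i) = 0 ↔ s.testBit i = false := fun i => by
    rw [vecN, ixE.apply_symm_apply, ent_eq_zero_iff, hS]
  have hsum : ∑ i : Fin 9, (vecN F n (ixE.symm i)) ^ 3 = 0 := by
    rw [← hs]
    exact Fintype.sum_equiv ixE.symm _ _ fun i => rfl
  have hcube : ∀ i : Fin 9, (vecN F n (ixE.symm i)) ^ 3 = if s.testBit (i : ℕ) = true then (1 : F) else 0 := by
    intro i
    by_cases hb : s.testBit (i : ℕ) = true
    · rw [if_pos hb]
      refine four_eq_one_of_ne fun h0 => ?_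
      rw [(hz i).1 h0] at hb
      exact Bool.noConfusion hb
    · rw [if_neg hb, (hz i).2 (by simpa using hb)]
      norm_num
  simp only [hcube, Finset.sum_boole] at hsum
  have heven := (CharP.cast_eq_zero_iff F 2 _).1 hsum
  have hs0 : s ≠ 0 := by
    rintro rfl
    refine hne (funext fun z => ?_)
    have := (hz (ixE z)).2 (Nat.zero_testBit _)
    rwa [ixE.symm_apply_apply] at this
  have hbit : parMask.testBit s = true := by
    rw [parity_ok ⟨s, hlt⟩, decide_eq_true_iff]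
    exact ⟨hs0, Nat.mod_eq_zero_of_dvd heven⟩
  have e : Nat.land (Nat.shiftRight parMask s) 1 = (parMask >>> s) &&& 1 := rfl
  rw [e, Nat.and_one_is_mod, Nat.shiftRight_eq_div_pow]
  have := Nat.toNat_testBit parMask s
  rw [hbit] at this
  rw [← this]
  rfl

theorem exists_good (v : F9 → F) (hv : v ≠ 0) (hs : ∑ z, (v z) ^ 3 = 0) :
    ∃ n, n < 262144 ∧ goodN n = true ∧ ∃ x : F, x ≠ 0 ∧ v = x • vecN F n := by
  obtain ⟨n, hn, rfl⟩ := exists_code v
  have h0 := w_ne_zero (F := F)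
  have h2 : ω ^ 3 = 1 := w_pow_three
  have good : ∀ m, m < 262144 → (∃ x : F, x ≠ 0 ∧ vecN F n = x • vecN F m) → m ≤ wN m → m ≤ wN (wN m) →
      goodN m = true := by
    rintro m hm ⟨x, hx, e⟩ l1 l2
    simp only [goodN, Bool.and_eq_true, Nat.ble_eq]
    refine ⟨⟨isotropic_parity (F := F) hm ?_ ?_, l1⟩, l2⟩
    · intro h; rw [h, smul_zero] at e; exact hv e
    · rw [e] at hs
      simp only [Pi.smul_apply, smul_eq_mul, mul_pow, four_eq_one_of_ne hx, one_mul] at hs
      exact hs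
  have e1 := vecN_wN (F := F) hn
  have e2 := vecN_wN (F := F) (wN_lt hn)
  have r1 : vecN F n = ω ^ 2 • vecN F (wN n) := by rw [e1, smul_smul, ← pow_succ, h2, one_smul]
  have r2 : vecN F n = ω • vecN F (wN (wN n)) := by
    rw [e2, e1, smul_smul, smul_smul, ← pow_two, ← pow_succ, h2, one_smul]
  have t := wN_three hn
  rcases Nat.lt_or_ge (wN n) n with l | l
  · rcases Nat.lt_or_ge (wN (wN n)) (wN n) with l' | l'
    · exact ⟨_, wN_lt (wN_lt hn), good _ (wN_lt (wN_lt hn)) ⟨_, h0, r2⟩ (by rw [t]; omega) (by rw [t]; omega),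
        _, h0, r2⟩
    · exact ⟨_, wN_lt hn, good _ (wN_lt hn) ⟨_, pow_ne_zero _ h0, r1⟩ l' (by rw [t]; omega),
        _, pow_ne_zero _ h0, r1⟩
  · rcases Nat.lt_or_ge (wN (wN n)) n with l' | l'
    · exact ⟨_, wN_lt (wN_lt hn), good _ (wN_lt (wN_lt hn)) ⟨_, h0, r2⟩ (by rw [t]; omega) (by rw [t]; omega),
        _, h0, r2⟩
    · exact ⟨n, hn, good n hn ⟨1, one_ne_zero, (one_smul _ _).symm⟩ l l', 1, one_ne_zero, (one_smul _ _).symm⟩

theorem iso_spec {i : ℕ} (hi : i < numIso) : isoTest i = true := allFrom_zero iso_ok hi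

theorem good_listed_below : ∀ i, i < numIso → ∀ n, n ≤ isoCode i → goodN n = true →
    ∃ j, j < numIso ∧ isoCode j = n := by
  intro i
  induction i with
  | zero =>
    intro hi n hn hg
    rcases Nat.eq_or_lt_of_le hn with rfl | hn
    · exact ⟨0, hi, rfl⟩
    · have h := iso_spec hi
      simp only [isoTest, Nat.beq_refl, cond_true, Bool.and_eq_true] at h
      have h' := allFrom_zero h.2 hn
      simp [hg] at h'
  | succ i ih =>
    intro hi n hn hg
    rcases Nat.eq_or_lt_of_le hn with rfl | hn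
    · exact ⟨_, hi, rfl⟩
    · rcases Nat.lt_or_ge (isoCode i) n with hgt | hle
      · have h := iso_spec hi
        have hb : Nat.beq (i + 1) 0 = false := rfl
        simp only [isoTest, hb, cond_false, Bool.and_eq_true, Nat.blt_eq, Nat.add_sub_cancel] at h
        have h' := allFrom_iff.1 h.2.2 n (by omega) (by omega)
        simp [hg] at h'
      · exact ih (by omega) n hle hg

theorem good_listed {n : ℕ} (hn : n < 262144) (hg : goodN n = true) : ∃ i, i < numIso ∧ isoCode i = n := by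
  have h := iso_tail
  simp only [isoTail, Bool.and_eq_true, Nat.blt_eq] at h
  rcases Nat.lt_or_ge (isoCode (numIso - 1)) n with hgt | hle
  · have h' := allFrom_iff.1 h.2 n (by omega) (by omega)
    simp [hg] at h'
  · exact good_listed_below _ (by rw [numIso]; norm_num) n hle hg

theorem colM_vec {n : ℕ} (h : n < 262144) : mat F (colM n) *ᵥ e0 F = vecN F n := by
  rw [Matrix.mulVec_single_one]
  funext z
  have hq : n / 512 % 512 = n / 512 := Nat.mod_eq_of_lt (Nat.div_lt_of_lt_mul (by omega))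
  have hp := allFrom_zero (allFrom_zero spread_ok (Nat.mod_lt n (by norm_num : 512 > 0))) (ixE z).2
  have hq' := allFrom_zero (allFrom_zero spread_ok (Nat.mod_lt (n / 512) (by norm_num : 512 > 0))) (ixE z).2
  simp only [beq_iff_eq] at hp hq'
  show mat F (colM n) z 0 = vecN F n z
  rw [mat, toMat, Matrix.submatrix_apply, toMat9, vecN, entF_eq_val, entF_eq_val, show ((ixE (0 : F9) : Fin 9) : ℕ) = 0 from rfl,
    Nat.add_zero]
  show valF F (((spreadTab (n % 512)).testBit _).toNat + 2 * ((spreadTab (n / 512 % 512)).testBit _).toNat) = _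
  rw [hp, hq', hq]

theorem iso_orbit (i : ℕ) (hi : i < numIso) :
    ∃ g ∈ G3 F, ∃ x : F, x ≠ 0 ∧ vecN F (isoCode i) = x • (um g *ᵥ vecN F (isoCode isoOne)) := by
  suffices H : ∀ k i, isoInfo i / 2097152 % 64 < k → i < numIso →
      ∃ g ∈ G3 F, ∃ x : F, x ≠ 0 ∧ vecN F (isoCode i) = x • (um g *ᵥ vecN F (isoCode isoOne)) from
    H _ i (Nat.lt_succ_self _) hi
  intro k
  induction k with
  | zero => intro i h; omega
  | succ k ih =>
    intro i hd hi
    by_cases e : Nat.beq i isoOne = true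
    · obtain rfl := Nat.eq_of_beq_eq_true e
      exact ⟨1, one_mem _, 1, one_ne_zero, by rw [one_smul, show um (1 : GL F9 F) = 1 from rfl, Matrix.one_mulVec]⟩
    · have h := iso_spec hi
      rw [Bool.not_eq_true] at e
      simp only [isoTest, e, cond_false, Bool.and_eq_true, Nat.blt_eq] at h
      obtain ⟨⟨⟨hp, hdep⟩, he⟩, -⟩ := h
      obtain ⟨g, hg, x, hx, eg⟩ := ih _ (by omega) hp
      obtain ⟨-, he'⟩ := mat_eqSc (F := F) he
      rw [mat_mul, ← gU_mat (Nat.mod_lt _ (by norm_num))] at he'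
      have hlt : ∀ j, isoCode j < 262144 := fun j => Nat.mod_lt _ (by norm_num)
      have h' := congrArg (fun M : Matrix F9 F9 F => M *ᵥ e0 F) he'
      simp only [Matrix.smul_mulVec, ← Matrix.mulVec_mulVec, colM_vec (hlt _)] at h'
      rw [eg, Matrix.mulVec_smul, Matrix.mulVec_mulVec, ← um_mul, smul_smul] at h'
      exact ⟨_, mul_mem (gU_mem (Nat.mod_lt _ (by norm_num))) hg, _,
        mul_ne_zero (pow_ne_zero _ w_ne_zero) hx, h'⟩

theorem isotropic_orbit {v w : F9 → F} (hv : v ≠ 0) (hw : w ≠ 0) (sv : ∑ z, (v z) ^ 3 = 0)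
    (sw : ∑ z, (w z) ^ 3 = 0) : ∃ g ∈ G3 F, ∃ c : F, c ≠ 0 ∧ um g *ᵥ v = c • w := by
  have key : ∀ v : F9 → F, v ≠ 0 → ∑ z, (v z) ^ 3 = 0 →
      ∃ g ∈ G3 F, ∃ x : F, x ≠ 0 ∧ v = x • (um g *ᵥ vecN F (isoCode isoOne)) := by
    intro v hv hs
    obtain ⟨n, hn, hg, x, hx, e⟩ := exists_good v hv hs
    obtain ⟨i, hi, rfl⟩ := good_listed hn hg
    obtain ⟨g, hg', y, hy, e'⟩ := iso_orbit (F := F) i hi
    exact ⟨g, hg', x * y, mul_ne_zero hx hy, by rw [e, e', smul_smul]⟩
  obtain ⟨g, hg, x, hx, ev⟩ := key v hv sv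
  obtain ⟨h, hh, y, hy, ew⟩ := key w hw sw
  refine ⟨h * g⁻¹, mul_mem hh (inv_mem hg), x * y⁻¹, mul_ne_zero hx (inv_ne_zero hy), ?_⟩
  rw [ev, ew, Matrix.mulVec_smul, Matrix.mulVec_mulVec, ← um_mul, inv_mul_cancel_right, smul_smul,
    mul_assoc, inv_mul_cancel₀ hy, mul_one]

end Cfsg.Agent.Janko3
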