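/-
The triple cover of `J₃` inside a special unitary group.
-/
import Cfsg.Agent.Janko3.Simple
import Cfsg.Agent.Janko3.ChecksU
import Cfsg.Prelude.Def_Classical
import Cfsg.Prelude.Def_Sporadic
import Mathlib.LinearAlgebra.Matrix.Reindex
import Mathlib.Algebra.CharP.Frobenius
import Mathlib.FieldTheory.Finite.GaloisField

set_option autoImplicit false

namespace Cfsg.Agent.Janko3

open Cfsg.Spor

variable {F : Type} [Field F] [d : F4Data F]

local notation "ω" => (F4Data.w : F)

theorem valF_conj {n : ℕ} (hn : n < 4) : valF F (conj4 n) = valF F n ^ 2 := by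
  interval_cases n <;> simp [valF, conj4]
  rw [← pow_mul]
  linear_combination -ω * w_pow_three (F := F)

theorem ent4_lt (A : M4) (z w : F9) : ent4 A z w < 4 := by
  rw [ent4]
  cases A.p.testBit (9 * (ixE z : ℕ) + ixE w) <;> cases A.q.testBit (9 * (ixE z : ℕ) + ixE w) <;> simp

theorem mat_apply (A : M4) (z w : F9) : mat F A z w = valF F (ent4 A z w) := by
  rw [mat, toMat, Matrix.submatrix_apply, toMat9, entF_eq_val]
  rfl

/-- The squaring automorphism. -/
abbrev conjF (F : Type) [Field F] [F4Data F] : F →+* F := frobenius F 2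

/-- Invertible matrices that preserve the Hermitian form. -/
def Herm (g : GL F9 F) : Prop := (um g).transpose * (um g).map (conjF F) = 1

theorem herm_sU {n : ℕ} (hn : n < 43) : Herm (sU F n hn) := by
  have e : (um (sU F n hn)).map (conjF F) = (mat F (dec (genInv n))).transpose := by
    ext z w
    show conjF F (mat F (sM n) z w) = mat F (dec (genInv n)) w z
    rw [mat_apply, mat_apply, unitary_ok ⟨n, hn⟩, valF_conj (ent4_lt _ _ _), conjF, frobenius_def]
  have h : mat F (dec (genInv n)) * mat F (sM n) = 1 := (sU F n hn).inv_val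
  rw [Herm, e, ← Matrix.transpose_mul]
  show (mat F (dec (genInv n)) * mat F (sM n)).transpose = 1
  rw [h, Matrix.transpose_one]

theorem herm_mul {g h : GL F9 F} (hg : Herm g) (hh : Herm h) : Herm (g * h) := by
  unfold Herm at hg hh ⊢
  rw [um_mul, Matrix.transpose_mul, Matrix.map_mul, Matrix.mul_assoc,
    ← Matrix.mul_assoc (um g).transpose, hg, Matrix.one_mul, hh]

theorem herm_one : Herm (1 : GL F9 F) := by
  show (1 : Matrix F9 F9 F).transpose * (1 : Matrix F9 F9 F).map (conjF F) = 1
  rw [Matrix.transpose_one, Matrix.map_one _ (map_zero _) (map_one _), Matrix.one_mul]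

theorem herm_mem {g : GL F9 F} (hg : g ∈ G3 F) : Herm g := by
  refine stable_closure (S := {g | Herm g}) herm_one ?_ hg
  intro s hs y hy
  obtain ⟨n, hn, e⟩ := gens_code F hs
  obtain rfl : s = sU F n hn := Units.ext e
  exact herm_mul (herm_sU hn) hy

theorem det_mem {g : GL F9 F} (hg : g ∈ G3 F) : (um g).det = 1 := by
  rw [G3_eq] at hg
  refine stable_closure (S := {g | (um g).det = 1}) Matrix.det_one ?_ hg
  intro s hs y hy
  show (um (s * y)).det = 1
  rw [um_mul, Matrix.det_mul, show (um y).det = 1 from hy, mul_one]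
  have key : ∀ k, k < 2 → (um (gU F k)).det = 1 := by
    intro k hk
    have h19 : (um (gU F k)).det ^ 19 = 1 := by
      rw [← Matrix.det_pow, ← Units.val_pow_eq_pow_val, gU_pow hk]
      exact Matrix.det_one
    have h0 : (um (gU F k)).det ≠ 0 := fun h => by simp [h] at h19
    rwa [show 19 = 3 * 6 + 1 from rfl, pow_succ, pow_mul, four_eq_one_of_ne h0, one_pow, one_mul] at h19
  rcases hs with rfl | rfl | rfl
  · rw [um_wU, Matrix.det_smul, Matrix.det_one, mul_one, show Fintype.card F9 = 3 * 3 from rfl, pow_mul,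
      w_pow_three, one_pow]
  · exact key 0 (by norm_num)
  · exact key 1 (by norm_num)

/-- The embedding into the special linear group. -/
def toSL (F : Type) [Field F] [F4Data F] : G3 F →* Matrix.SpecialLinearGroup (Fin 9) F where
  toFun g := ⟨(um (g : GL F9 F)).submatrix ixE.symm ixE.symm, by
    rw [Matrix.det_submatrix_equiv_self]; exact det_mem g.2⟩
  map_one' := by
    refine Subtype.ext ?_
    show (1 : Matrix F9 F9 F).submatrix ixE.symm ixE.symm = 1
    exact Matrix.submatrix_one_equiv _
  map_mul' g h := by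
    refine Subtype.ext ?_
    show (um (g : GL F9 F) * um (h : GL F9 F)).submatrix ixE.symm ixE.symm = _
    rw [← Matrix.submatrix_mul_equiv _ _ _ ixE.symm]
    rfl

theorem toSL_injective : Function.Injective (toSL F) := by
  intro g h e
  refine Subtype.ext (um_inj (Matrix.ext fun z w => ?_))
  have e' : um (g : GL F9 F) (ixE.symm (ixE z)) (ixE.symm (ixE w)) =
      um (h : GL F9 F) (ixE.symm (ixE z)) (ixE.symm (ixE w)) :=
    congrFun (congrFun (congrArg Subtype.val e) (ixE z)) (ixE w)
  rwa [Equiv.symm_apply_apply, Equiv.symm_apply_apply] at e'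

theorem toSL_mem (g : G3 F) : toSL F g ∈ Cfsg.SU 9 F 2 := by
  intro u v
  let M : Matrix (Fin 9) (Fin 9) F := (um (g : GL F9 F)).submatrix ixE.symm ixE.symm
  show Cfsg.hermForm 9 F 2 (Matrix.mulVec M u) (Matrix.mulVec M v) = Cfsg.hermForm 9 F 2 u v
  have hM : M.transpose * M.map (conjF F) = 1 := by
    have h : ((um (g : GL F9 F)).transpose * (um (g : GL F9 F)).map (conjF F)).submatrix ixE.symm ixE.symm = 1 := by
      rw [herm_mem g.2, Matrix.submatrix_one_equiv]
    rw [← Matrix.submatrix_mul_equiv _ _ _ ixE.symm] at h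
    exact h
  have hf : ∀ a b : Fin 9 → F, Cfsg.hermForm 9 F 2 a b = dotProduct a (conjF F ∘ b) := fun a b => rfl
  rw [hf, hf]
  have e : conjF F ∘ Matrix.mulVec M v = Matrix.mulVec (M.map (conjF F)) (conjF F ∘ v) :=
    funext fun i => RingHom.map_mulVec (conjF F) M v i
  rw [e, Matrix.dotProduct_mulVec, ← Matrix.vecMul_transpose M u, Matrix.vecMul_vecMul, hM, Matrix.vecMul_one]

/-- The embedding into the special unitary group. -/
def toSU (F : Type) [Field F] [F4Data F] : G3 F →* Cfsg.SU 9 F 2 :=
  (toSL F).codRestrict _ toSL_mem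

theorem toSU_injective : Function.Injective (toSU F) := fun _ _ e =>
  toSL_injective (congrArg Subtype.val e)

/-- Isomorphic groups have isomorphic central quotients. -/
theorem quotient_center_iso {A B : Type*} [Group A] [Group B] (e : A ≃* B) :
    Nat.card (Subgroup.center B) = Nat.card (Subgroup.center A) ∧
      Nonempty (A ⧸ Subgroup.center A ≃* B ⧸ Subgroup.center B) := by
  have h : (Subgroup.center A).map e.toMonoidHom = Subgroup.center B := by
    ext b
    constructor
    · rintro ⟨a, ha, rfl⟩
      refine Subgroup.mem_center_iff.2 fun y => ?_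
      show y * e a = e a * y
      rw [← e.apply_symm_apply y, ← map_mul, ← map_mul, Subgroup.mem_center_iff.1 ha]
    · intro hb
      refine ⟨e.symm b, Subgroup.mem_center_iff.2 fun x => e.injective ?_, e.apply_symm_apply b⟩
      rw [map_mul, map_mul, e.apply_symm_apply, Subgroup.mem_center_iff.1 hb]
  refine ⟨?_, ⟨QuotientGroup.congr _ _ e h⟩⟩
  rw [← h, Subgroup.card_map_of_injective e.injective]

/-- Transfer along an isomorphism. -/
theorem isJ3_of_iso {A B : Type*} [Group A] [Group B] (e : A ≃* B) (hs : IsSimpleGroup A)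
    (hc : Nat.card A = 50232960) : Cfsg.IsJ3 B := by
  have hcB : Nat.card B = 50232960 := by rw [← Nat.card_congr e.toEquiv, hc]
  have : Finite B := Nat.finite_of_card_ne_zero (by rw [hcB]; norm_num)
  have : Nontrivial B := Finite.one_lt_card_iff_nontrivial.1 (by rw [hcB]; norm_num)
  exact ⟨@IsSimpleGroup.isSimpleGroup_of_surjective _ _ B _ hs _ e.toMonoidHom e.surjective, hcB⟩

theorem exists_in_SU (F : Type) [Field F] [F4Data F] : ∃ H : Subgroup (Cfsg.SU 9 F 2),
    Nat.card (Subgroup.center H) = 3 ∧ Cfsg.IsJ3 (H ⧸ Subgroup.center H) := by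
  refine ⟨(toSU F).range, ?_⟩
  obtain ⟨h1, ⟨e⟩⟩ := quotient_center_iso (MonoidHom.ofInjective (toSU_injective (F := F)))
  exact ⟨h1.trans card_center, isJ3_of_iso e simple_J3 card_J3⟩

theorem exists_F4 : ∃ (F : Type) (_ : Field F) (_ : Fintype F), Fintype.card F = 4 ∧ Nonempty (F4Data F) := by
  haveI : Fact (Nat.Prime 2) := ⟨Nat.prime_two⟩
  letI : Fintype (GaloisField 2 2) := Fintype.ofFinite _
  have hc : Fintype.card (GaloisField 2 2) = 4 := by
    rw [← Nat.card_eq_fintype_card, GaloisField.card 2 2 (by norm_num)]; norm_num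
  classical
  obtain ⟨x, hx0, hx1⟩ : ∃ x : GaloisField 2 2, x ≠ 0 ∧ x ≠ 1 := by
    by_contra h
    push Not at h
    have hle : (Finset.univ : Finset (GaloisField 2 2)).card ≤ ({0, 1} : Finset (GaloisField 2 2)).card :=
      Finset.card_le_card fun x _ => by
        simp only [Finset.mem_insert, Finset.mem_singleton]
        by_cases hx : x = 0
        · exact Or.inl hx
        · exact Or.inr (h x hx)
    have := hle.trans Finset.card_le_two
    rw [Finset.card_univ, hc] at this
    omega
  have h3 : x ^ 3 = 1 := by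
    have h := FiniteField.pow_card_sub_one_eq_one x hx0
    rwa [hc] at h
  have hw : x ^ 2 + x + 1 = 0 := by
    have h : (x - 1) * (x ^ 2 + x + 1) = 0 := by linear_combination h3
    exact (mul_eq_zero.1 h).resolve_left (sub_ne_zero.2 hx1)
  exact ⟨GaloisField 2 2, inferInstance, inferInstance, hc, ⟨⟨x, hw, by rw [Nat.card_eq_fintype_card, hc]⟩⟩⟩

end Cfsg.Agent.Janko3
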