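/-
`J₃` as a transitive permutation group of degree 6156.
-/
import Cfsg.Agent.Janko3.Simple
import Cfsg.Agent.Janko3.Unitary
import Cfsg.Agent.Janko3.ChecksH
import Mathlib.GroupTheory.GroupAction.Quotient

set_option autoImplicit false

namespace Cfsg.Agent.Janko3

open Cfsg.Spor
open Cfsg.Agent.Janko1 (allFrom allFrom_zero allFrom_iff)

variable {F : Type} [Field F] [d : F4Data F]

theorem decM_mem {v : ℕ} (h : decOk v = true) : ∃ u ∈ G3 F, um u = mat F (decM v) := by
  simp only [decOk, Bool.and_eq_true, Nat.blt_eq] at h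
  obtain ⟨a, ha, ea⟩ := exists_tG (F := F) h.1
  obtain ⟨b, hb, eb⟩ := exists_kU (F := F) h.2
  exact ⟨a * b, mul_mem ha (K0_le_G3 hb), by rw [um_mul, ea, eb, decM, mat_mul, tM, kM]⟩

theorem exists_hg {v : ℕ} {M : M4} (ho : decOk v = true) (he : eqSc (v % 4) M (decM v) = true) :
    ∃ u ∈ G3 F, um u = mat F M := by
  obtain ⟨u, hu, eu⟩ := decM_mem (F := F) ho
  exact ⟨wU F ^ (v % 4) * u, mul_mem (pow_mem wU_mem _) hu, by rw [um_wU_mul, eu, (mat_eqSc he).2]⟩

theorem exists_H : ∃ H : Subgroup (G3 F), Subgroup.center (G3 F) ≤ H ∧ Nat.card H = 24480 := by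
  obtain ⟨-, -, hone, -, -, -, -, -, -, -, -, -, oA, eA, oB, eB⟩ := misc
  obtain ⟨a, ha, ea⟩ := exists_hg (F := F) oA eA
  obtain ⟨b, hb, eb⟩ := exists_hg (F := F) oB eB
  let L : Subgroup (GL F9 F) := Subgroup.closure {wU F, a, b}
  have ht : ∀ i, i < numH → treeTest hM hg hInfo numH hOne i = true ∧ closeTest hM hg hClose numH i = true := by
    intro i hi
    have h := allFrom_zero h_ok hi
    simp only [hTest, Bool.and_eq_true] at h
    exact h.1
  have hs : allFrom (sortTest hM) 0 numH = true := allFrom_iff.2 fun i _ hi => by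
    have h := allFrom_zero h_ok (show i < numH by omega)
    simp only [hTest, Bool.and_eq_true] at h
    exact h.2
  have hu : ∀ i, i < numH → ∃ u : GL F9 F, um u = mat F (hM i) := fun i hi => by
    obtain ⟨u, -, eu⟩ := tree_mem (fun i hi => (ht i hi).1) (L := L) (Subgroup.subset_closure (Or.inl rfl))
      (fun k hk => by
        interval_cases k
        · exact ⟨a, Subgroup.subset_closure (Or.inr (Or.inl rfl)), ea⟩
        · exact ⟨b, Subgroup.subset_closure (Or.inr (Or.inr rfl)), eb⟩) i hi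
    exact ⟨u, eu⟩
  have hcard : Nat.card L = 3 * numH := list_card (fun _ => bdd_dec _) hs hu fun z => list_group hone ht ea eb z
  have hle : L ≤ G3 F := by
    rw [Subgroup.closure_le]
    rintro _ (rfl | rfl | rfl)
    · exact wU_mem
    · exact ha
    · exact hb
  refine ⟨L.subgroupOf (G3 F), fun z hz => ?_, ?_⟩
  · obtain ⟨c, -, e⟩ := (center_iff z).1 hz
    rw [Subgroup.mem_subgroupOf, e]
    exact pow_mem (show wU F ∈ L from Subgroup.subset_closure (Or.inl rfl)) _
  · rw [Nat.card_congr (Subgroup.subgroupOfEquivOfLe hle).toEquiv, hcard, numH]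

theorem exists_perm (F : Type) [Field F] [F4Data F] : ∃ H : Subgroup (Equiv.Perm (Fin 6156)),
    Cfsg.IsJ3 H ∧ MulAction.IsPretransitive H (Fin 6156) ∧
      Nat.card (MulAction.stabilizer H (0 : Fin 6156)) = 8160 := by
  classical
  obtain ⟨B, hZ, hB⟩ := exists_H (F := F)
  have hX : Nat.card (G3 F ⧸ B) = 6156 := by
    have h := Subgroup.card_eq_card_quotient_mul_card_subgroup B
    rw [card_G3, hB] at h
    omega
  have : Finite (G3 F ⧸ B) := Nat.finite_of_card_ne_zero (by rw [hX]; norm_num)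
  obtain ⟨e⟩ : Nonempty ((G3 F ⧸ B) ≃ Fin 6156) := ⟨(Finite.equivFin _).trans (finCongr hX)⟩
  let φ : G3 F →* Equiv.Perm (Fin 6156) := e.permCongrHom.toMonoidHom.comp (MulAction.toPermHom (G3 F) (G3 F ⧸ B))
  have hker : φ.ker = Subgroup.center (G3 F) := by
    have h1 : φ.ker = B.normalCore := by
      rw [Subgroup.normalCore_eq_ker]
      ext z
      simp only [MonoidHom.mem_ker, φ, MonoidHom.coe_comp, Function.comp_apply]
      exact e.permCongrHom.map_eq_one_iff
    rw [h1]
    have hle : Subgroup.center (G3 F) ≤ B.normalCore := Subgroup.normal_le_normalCore.2 hZ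
    rcases normal_eq B.normalCore hle with h | h
    · exact h
    · exfalso
      have hBt : B = ⊤ := top_le_iff.1 (h ▸ B.normalCore_le)
      rw [hBt, Subgroup.card_top, card_G3] at hB
      norm_num at hB
  have hiso : J3 F (F4Data.w : F) ≃* φ.range :=
    (QuotientGroup.quotientMulEquivOfEq hker.symm).trans (QuotientGroup.quotientKerEquivRange φ)
  have htrans : MulAction.IsPretransitive φ.range (Fin 6156) := by
    refine ⟨fun a b => ?_⟩
    obtain ⟨g, hg⟩ := MulAction.exists_smul_eq (G3 F) (e.symm a) (e.symm b)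
    refine ⟨⟨φ g, g, rfl⟩, ?_⟩
    show e ((g : G3 F) • e.symm a) = b
    rw [hg, e.apply_symm_apply]
  refine ⟨φ.range, isJ3_of_iso hiso simple_J3 card_J3, htrans, ?_⟩
  have hr : Nat.card φ.range = 50232960 := by rw [← Nat.card_congr hiso.toEquiv, card_J3]
  have h := MulAction.index_stabilizer_of_transitive φ.range (0 : Fin 6156)
  have h2 := (MulAction.stabilizer φ.range (0 : Fin 6156)).card_mul_index
  rw [h, hr, Nat.card_fin] at h2
  omega

end Cfsg.Agent.Janko3
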