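/-
The tests for the Schur multiplier of `J₃`.
-/
import Cfsg.Agent.Janko3.InvDefs
import Cfsg.Agent.Janko3.DataSchur

set_option autoImplicit false

namespace Cfsg.Agent.Janko3

open Cfsg.Agent.Janko1 (allFrom)

/-- The element of the Sylow 2-subgroup given by a word. -/
def iW : List ℕ → ℕ
  | [] => sElOne
  | a :: w => sMul (mGen.getD a 0 * 128 + iW w)

/-- The letters below seven in a mask. -/
def maskW (m : ℕ) : List ℕ := (List.range 7).filter fun j => m.testBit j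

/-- Test that the seven involutions generate. -/
def genTwoTest (i : ℕ) : Bool := !allFrom (fun m => !Nat.beq (iW (maskW m)) i) 0 128

/-- An involution of the table. -/
def invTwo (i : ℕ) : Bool := Nat.blt i 128 && !Nat.beq i sElOne && Nat.beq (sMul (i * 128 + i)) sElOne

/-- The conjugating element of a fusion. -/
def fusM (k : ℕ) : M4 := pmul (aM (mFusBy.getD k 0 / 32)) (qM (mFusBy.getD k 0 % 32))

/-- Test of one conjugation in the fusion list. -/
def fusEq (k : ℕ) (x y : List ℕ) : Bool :=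
  M4.beq (pmul (fusM k) (sM2 (iW x))) (pmul (sM2 (iW y)) (fusM k))

/-- Test of the data for the prime two. -/
def twoTest : Bool :=
  (List.range 7).all (fun a => Nat.blt (mGen.getD a 0) 128) &&
  (List.range 7).all (fun a => (List.range a).all fun b =>
    Nat.beq (iW [a, b]) (iW (b :: FGS2.J2.Collect.word mTab a b))) &&
  mSqs.all (fun w => invTwo (iW w) && w.all fun c => decide (c < 7)) &&
  (List.range mFus.length).all (fun k => Nat.blt (mFusBy.getD k 0) 1920 &&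
    fusEq k (mFus.getD k default).1 (mFus.getD k default).2.2.1 &&
    fusEq k (mFus.getD k default).2.1 (mFus.getD k default).2.2.2 &&
    ((mFus.getD k default).1 ++ (mFus.getD k default).2.1 ++ (mFus.getD k default).2.2.1 ++
      (mFus.getD k default).2.2.2).all fun c => decide (c < 7)) &&
  Nat.beq mEight.length 3 && mEight.all invTwo &&
  invTwo (sMul (mEight.getD 0 0 * 128 + mEight.getD 1 0)) &&
  invTwo (sMul (mEight.getD 0 0 * 128 + mEight.getD 2 0)) &&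
  invTwo (sMul (mEight.getD 1 0 * 128 + mEight.getD 2 0)) &&
  invTwo (sMul (sMul (mEight.getD 0 0 * 128 + mEight.getD 1 0) * 128 + mEight.getD 2 0))

/-- An element of the Sylow 3-subgroup. -/
def cA3 (v : ℕ) : M4 := cnM (scM (v % 4) (decM v))

/-- A power modulo scalars. -/
def ppow (A : M4) : ℕ → M4
  | 0 => oneC
  | n + 1 => pmul (ppow A n) A

/-- The element with given exponents. -/
def eWord (k : ℕ) : M4 :=
  pmul (pmul (pmul (pmul (ppow (cA3 mA) (k / 81 % 3)) (ppow (cA3 mB) (k / 27 % 3))) (ppow (cA3 mC) (k / 9 % 3)))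
    (ppow (cA3 mZ1) (k / 3 % 3))) (ppow (cA3 mZ2) (k % 3))

/-- A listed element. -/
def p3M (i : ℕ) : M4 := dec (p3Key.getD i 0)

/-- Test of a listed element. -/
def p3Test (i : ℕ) : Bool :=
  M4.beq (eWord (p3Exp.getD i 0)) (p3M i) && M4.beq (cnM (p3M i)) (p3M i) && sortTest p3M i &&
  Nat.blt (p3Next.getD i 0 % 256) 243 && Nat.blt (p3Next.getD i 0 / 256) 243 &&
  M4.beq (pmul (cA3 mA) (p3M i)) (p3M (p3Next.getD i 0 % 256)) &&
  M4.beq (pmul (cA3 mB) (p3M i)) (p3M (p3Next.getD i 0 / 256))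

/-- Equality of two products. -/
def eq2 (A B C D : M4) : Bool := M4.beq (pmul A B) (pmul C D)

/-- Test of the independence of the three powers. -/
def indTest (n : ℕ) : Bool :=
  Nat.beq n 0 ||
    (!M4.beq (pmul (pmul (ppow (cA3 mC) (n / 9)) (ppow (cA3 mZ1) (n / 3 % 3))) (ppow (cA3 mZ2) (n % 3))) oneC)

/-- Test of the data for the prime three. -/
def threeTest : Bool :=
  [mA, mB, mC, mZ1, mZ2, mG].all (fun v => decOk v && Nat.blt (v % 4) 3) &&
  eq2 (cA3 mC) (pmul (cA3 mB) (cA3 mA)) (cA3 mA) (cA3 mB) &&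
  eq2 (cA3 mZ1) (pmul (cA3 mA) (cA3 mC)) (cA3 mC) (cA3 mA) &&
  eq2 (cA3 mZ2) (pmul (cA3 mB) (cA3 mC)) (cA3 mC) (cA3 mB) &&
  eq2 (cA3 mZ1) (cA3 mA) (cA3 mA) (cA3 mZ1) && eq2 (cA3 mZ1) (cA3 mB) (cA3 mB) (cA3 mZ1) &&
  eq2 (cA3 mZ2) (cA3 mA) (cA3 mA) (cA3 mZ2) && eq2 (cA3 mZ2) (cA3 mB) (cA3 mB) (cA3 mZ2) &&
  M4.beq (ppow (cA3 mZ1) 3) oneC && M4.beq (ppow (cA3 mZ2) 3) oneC && M4.beq (ppow (cA3 mC) 3) oneC &&
  M4.beq (ppow (cA3 mA) 3) (cA3 mZ2) && M4.beq (cnM oneC) oneC &&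
  M4.beq (pmul (cA3 mG) (cA3 mA))
    (pmul (pmul (pmul (pmul (pmul (cA3 mA) (ppow (cA3 mB) 2)) (ppow (cA3 mC) 2)) (cA3 mZ1)) (cA3 mZ2)) (cA3 mG)) &&
  M4.beq (pmul (cA3 mG) (cA3 mB))
    (pmul (pmul (pmul (pmul (cA3 mA) (cA3 mB)) (ppow (cA3 mZ1) 2)) (cA3 mZ2)) (cA3 mG)) &&
  M4.beq (pmul (cA3 mG) (cA3 mZ1)) (pmul (pmul (ppow (cA3 mZ1) 2) (cA3 mZ2)) (cA3 mG)) &&
  M4.beq (pmul (cA3 mG) (cA3 mZ2)) (pmul (pmul (ppow (cA3 mZ1) 2) (ppow (cA3 mZ2) 2)) (cA3 mG)) &&
  Nat.blt p3Id 243 && M4.beq (p3M p3Id) oneC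

theorem twoTest_ok : twoTest = true := by decide +kernel

theorem genTwo_ok : allFrom genTwoTest 0 128 = true := by decide +kernel

theorem threeTest_ok : threeTest = true := by decide +kernel

theorem p3_ok : allFrom p3Test 0 243 = true := by decide +kernel

theorem ind_ok : allFrom indTest 0 27 = true := by decide +kernel

end Cfsg.Agent.Janko3
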