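/-
The three-part of the multiplier: a Sylow subgroup of order `3^5` and one element of its normalizer
leave a kernel of order at most three.
-/
import Cfsg.Agent.FGS4.SchurSylow.Basic
import Mathlib.GroupTheory.OrderOfElement

set_option autoImplicit false

namespace Cfsg.Agent.Janko3.Three

open Subgroup
open scoped commutatorElement

universe u v

/-- The relations of the Sylow subgroup and of the element of its normalizer. -/
structure Data (Q : Type v) [Group Q] (a b g : Q) : Prop where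
  z1a : Commute ⁅⁅a, b⁆, a⁆ a
  z1b : Commute ⁅⁅a, b⁆, a⁆ b
  z2a : Commute ⁅⁅a, b⁆, b⁆ a
  z2b : Commute ⁅⁅a, b⁆, b⁆ b
  z1_cube : ⁅⁅a, b⁆, a⁆ ^ 3 = 1
  z2_cube : ⁅⁅a, b⁆, b⁆ ^ 3 = 1
  c_cube : ⁅a, b⁆ ^ 3 = 1
  a_cube : a ^ 3 = ⁅⁅a, b⁆, b⁆
  indep : ∀ i j k : ℕ, i < 3 → j < 3 → k < 3 →
    ⁅a, b⁆ ^ i * ⁅⁅a, b⁆, a⁆ ^ j * ⁅⁅a, b⁆, b⁆ ^ k = 1 → i = 0 ∧ j = 0 ∧ k = 0
  ga : g * a = a * b ^ 2 * ⁅a, b⁆ ^ 2 * ⁅⁅a, b⁆, a⁆ * ⁅⁅a, b⁆, b⁆ * g
  gb : g * b = a * b * ⁅⁅a, b⁆, a⁆ ^ 2 * ⁅⁅a, b⁆, b⁆ * g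
  gz1 : g * ⁅⁅a, b⁆, a⁆ = ⁅⁅a, b⁆, a⁆ ^ 2 * ⁅⁅a, b⁆, b⁆ * g
  gz2 : g * ⁅⁅a, b⁆, b⁆ = ⁅⁅a, b⁆, a⁆ ^ 2 * ⁅⁅a, b⁆, b⁆ ^ 2 * g

variable {Γ : Type u} [Group Γ] {Q : Type v} [Group Q]

theorem comm_mul_left {X Y W : Γ} (h : ∀ y, y * ⁅Y, W⁆ = ⁅Y, W⁆ * y) :
    ⁅X * Y, W⁆ = ⁅Y, W⁆ * ⁅X, W⁆ := by
  have e : ⁅X * Y, W⁆ = X * ⁅Y, W⁆ * X⁻¹ * ⁅X, W⁆ := by simp only [commutatorElement_def]; group
  rw [e, h X, mul_inv_cancel_right]

theorem comm_conj (G X Y : Γ) : ⁅G * X * G⁻¹, G * Y * G⁻¹⁆ = G * ⁅X, Y⁆ * G⁻¹ := by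
  simp only [commutatorElement_def]; group

theorem cube_move {C A Z : Γ} (h : Commute Z C) (e : C * A = Z * A * C) :
    C ^ 3 * A = Z ^ 3 * (A * C ^ 3) := by
  have st : ∀ X : Γ, C * (Z * X) = Z * (C * X) := fun X => by rw [← mul_assoc, ← h.eq, mul_assoc]
  have e1 : ∀ X : Γ, C * (A * X) = Z * (A * (C * X)) := fun X => by rw [← mul_assoc, e]; simp only [mul_assoc]
  have e0 : C * A = Z * (A * C) := by rw [e, mul_assoc]
  simp only [pow_succ, pow_zero, one_mul, mul_assoc, e0, st, e1]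

theorem kernel_le [Finite Γ] {σ : Γ →* Q} (hσ : Cfsg.IsStemExtension σ) {a b g : Q} (D : Data Q a b g)
    (S : Sylow 3 Q) (hS : (S : Subgroup Q) = closure {a, b}) :
    ∃ t : Γ, t ^ 3 = 1 ∧ ∀ x ∈ σ.ker, ∀ n : ℕ, orderOf x = 3 ^ n → x ∈ zpowers t := by
  classical
  haveI : Fact (Nat.Prime 3) := ⟨Nat.prime_three⟩
  haveI : Finite Q := Finite.of_surjective σ hσ.1
  have hc : ∀ w ∈ σ.ker, ∀ y : Γ, y * w = w * y := fun w hw => mem_center_iff.1 (hσ.2.1 hw)
  letI : CommGroup σ.ker :=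
    { (inferInstance : Group σ.ker) with mul_comm := fun x y => Subtype.ext (hc _ y.2 x) }
  choose L hL using hσ.1
  let κ : Q → Q → σ.ker := fun x y =>
    if h : Commute x y then ⟨⁅L x, L y⁆, by
      rw [MonoidHom.mem_ker, map_commutatorElement, hL, hL, commutatorElement_eq_one_iff_mul_comm]; exact h⟩
    else 1
  have κ_val : ∀ {x y : Q}, Commute x y → ∀ {X Y : Γ}, σ X = x → σ Y = y → (κ x y : Γ) = ⁅X, Y⁆ := by
    intro x y h X Y hX hY
    simp only [κ, dif_pos h]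
    obtain ⟨k, hk, rfl⟩ : ∃ k ∈ σ.ker, X = L x * k :=
      ⟨(L x)⁻¹ * X, by rw [MonoidHom.mem_ker, map_mul, map_inv, hX, hL, inv_mul_cancel],
        (mul_inv_cancel_left _ _).symm⟩
    obtain ⟨l, hl, rfl⟩ : ∃ l ∈ σ.ker, Y = L y * l :=
      ⟨(L y)⁻¹ * Y, by rw [MonoidHom.mem_ker, map_mul, map_inv, hY, hL, inv_mul_cancel],
        (mul_inv_cancel_left _ _).symm⟩
    have i1 : ∀ z : Γ, k * z * k⁻¹ = z := fun z => by rw [← hc k hk z, mul_inv_cancel_right]
    have i2 : ∀ z : Γ, l * z * l⁻¹ = z := fun z => by rw [← hc l hl z, mul_inv_cancel_right]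
    calc ⁅L x, L y⁆ = L x * L y * (l * (L x)⁻¹ * l⁻¹) * (L y)⁻¹ := by rw [i2, commutatorElement_def]
      _ = L x * (k * (L y * l) * k⁻¹) * (L x)⁻¹ * l⁻¹ * (L y)⁻¹ := by rw [i1]; group
      _ = ⁅L x * k, L y * l⁆ := by rw [commutatorElement_def]; group
  have κ_mulL : ∀ {x y w : Q}, Commute x w → Commute y w → κ (x * y) w = κ x w * κ y w := by
    intro x y w hx hy
    apply Subtype.ext
    have e := κ_val hy (hL y) (hL w)
    rw [κ_val (hx.mul_left hy) (show σ (L x * L y) = x * y by rw [map_mul, hL, hL]) (hL w),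
      comm_mul_left (by rw [← e]; exact hc _ (κ y w).2), Subgroup.coe_mul, e, κ_val hx (hL x) (hL w)]
    rw [← e]; exact (hc _ (κ y w).2 _).symm
  have κ_swap : ∀ {x y : Q}, Commute x y → κ y x = (κ x y)⁻¹ := by
    intro x y h
    apply Subtype.ext
    rw [κ_val h.symm (hL y) (hL x), Subgroup.coe_inv, κ_val h (hL x) (hL y), commutatorElement_inv]
  have κ_mulR : ∀ {x y w : Q}, Commute x y → Commute x w → κ x (y * w) = κ x y * κ x w := by
    intro x y w hy hw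
    rw [κ_swap (hy.mul_right hw).symm, κ_mulL hy.symm hw.symm, κ_swap hy, κ_swap hw, mul_inv, inv_inv, inv_inv]
  have κ_one : ∀ x : Q, κ x 1 = 1 := fun x => by
    have h := κ_mulR (Commute.one_right x) (Commute.one_right x)
    rwa [one_mul, left_eq_mul] at h
  have κ_inv : ∀ {x y : Q}, Commute x y → κ x y⁻¹ = (κ x y)⁻¹ := by
    intro x y h
    apply eq_inv_of_mul_eq_one_left
    rw [← κ_mulR h.inv_right h, inv_mul_cancel, κ_one]
  have κ_commu : ∀ {x p q : Q}, Commute x p → Commute x q → κ x ⁅p, q⁆ = 1 := by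
    intro x p q hp hq
    rw [commutatorElement_def, κ_mulR ((hp.mul_right hq).mul_right hp.inv_right) hq.inv_right,
      κ_mulR (hp.mul_right hq) hp.inv_right, κ_mulR hp hq, κ_inv hp, κ_inv hq, mul_inv_cancel_comm, mul_inv_cancel]
  have κ_conj : ∀ {k x y x' y' : Q}, Commute x y → k * x = x' * k → k * y = y' * k → κ x y = κ x' y' := by
    intro k x y x' y' h hx hy
    have h' : Commute x' y' := by
      rw [eq_mul_inv_of_mul_eq hx.symm, eq_mul_inv_of_mul_eq hy.symm]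
      exact (h.map (MulAut.conj k))
    apply Subtype.ext
    rw [κ_val h' (X := L k * L x * (L k)⁻¹) (Y := L k * L y * (L k)⁻¹)
        (by rw [map_mul, map_mul, map_inv, hL, hL, hx, mul_inv_cancel_right])
        (by rw [map_mul, map_mul, map_inv, hL, hL, hy, mul_inv_cancel_right]),
      comm_conj, ← κ_val h (hL x) (hL y), hc _ (κ x y).2 (L k), mul_inv_cancel_right]
  set c := ⁅a, b⁆ with hcdef
  set z1 := ⁅c, a⁆ with hz1
  set z2 := ⁅c, b⁆ with hz2
  have z1c : Commute z1 c := by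
    rw [hcdef, commutatorElement_def]
    exact ((D.z1a.mul_right D.z1b).mul_right D.z1a.inv_right).mul_right D.z1b.inv_right
  have z2c : Commute z2 c := by
    rw [hcdef, commutatorElement_def]
    exact ((D.z2a.mul_right D.z2b).mul_right D.z2a.inv_right).mul_right D.z2b.inv_right
  have z12 : Commute z1 z2 := by
    rw [hz2, commutatorElement_def]
    exact ((z1c.mul_right D.z1b).mul_right z1c.inv_right).mul_right D.z1b.inv_right
  have k1c : κ z1 c = 1 := κ_commu D.z1a D.z1b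
  have k2c : κ z2 c = 1 := κ_commu D.z2a D.z2b
  have k11 : κ z1 z1 = 1 := κ_commu z1c D.z1a
  have k12 : κ z1 z2 = 1 := κ_commu z1c D.z1b
  have k21 : κ z2 z1 = 1 := κ_commu z2c D.z2a
  have k22 : κ z2 z2 = 1 := κ_commu z2c D.z2b
  have za1 : Commute z1 a := D.z1a
  have zb1 : Commute z1 b := D.z1b
  have za2 : Commute z2 a := D.z2a
  have zb2 : Commute z2 b := D.z2b
  obtain ⟨A, hA⟩ := hσ.1 a
  obtain ⟨B, hB⟩ := hσ.1 b
  set C := ⁅A, B⁆ with hCdef
  set Z1 := ⁅C, A⁆ with hZ1def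
  set Z2 := ⁅C, B⁆ with hZ2def
  have hC : σ C = c := by rw [hCdef, map_commutatorElement, hA, hB]
  have hZ1 : σ Z1 = z1 := by rw [hZ1def, map_commutatorElement, hC, hA]
  have hZ2 : σ Z2 = z2 := by rw [hZ2def, map_commutatorElement, hC, hB]
  have comm_one : ∀ {x y : Q} {X Y : Γ}, Commute x y → σ X = x → σ Y = y → κ x y = 1 → Commute X Y := by
    intro x y X Y h hX hY e
    have := κ_val h hX hY
    rw [e, Subgroup.coe_one] at this
    exact commutatorElement_eq_one_iff_mul_comm.1 this.symm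
  have cZ1C : Commute Z1 C := comm_one z1c hZ1 hC k1c
  have cZ2C : Commute Z2 C := comm_one z2c hZ2 hC k2c
  have cZ12 : Commute Z1 Z2 := comm_one z12 hZ1 hZ2 k12
  have move : ∀ {x y : Q} {X Y : Γ}, Commute x y → σ X = x → σ Y = y → X * Y = (κ x y : Γ) * (Y * X) := by
    intro x y X Y h hX hY
    rw [κ_val h hX hY, commutatorElement_def]; group
  set u := κ z1 a with hu
  set v := κ z1 b with hv
  set w := κ z2 b with hw
  have hv2 : κ z2 a = v := by
    have e0 : C = ⁅Z1 * A, Z2 * B⁆ := by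
      calc C = C * ⁅A, B⁆ * C⁻¹ := by rw [← hCdef, mul_inv_cancel_right]
        _ = ⁅C * A * C⁻¹, C * B * C⁻¹⁆ := (comm_conj _ _ _).symm
        _ = _ := by
          rw [show C * A = Z1 * A * C by rw [hZ1def, commutatorElement_def]; group,
            show C * B = Z2 * B * C by rw [hZ2def, commutatorElement_def]; group, mul_inv_cancel_right, mul_inv_cancel_right]
    have m1 := move za2.symm hA hZ2
    have m2 := move zb1 hZ1 hB
    have e3 : κ a z2 * κ z1 b = 1 := by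
      apply Subtype.ext
      rw [Subgroup.coe_mul, Subgroup.coe_one]
      generalize hk1 : (κ a z2 : Γ) = k1 at m1 ⊢
      generalize hk2 : (κ z1 b : Γ) = k2 at m2 ⊢
      have c1 : ∀ y, y * k1 = k1 * y := fun y => hk1 ▸ hc _ (κ a z2).2 y
      have c2 : ∀ y, y * k2 = k2 * y := fun y => hk2 ▸ hc _ (κ z1 b).2 y
      have f1 : ∀ {a1 a2 a3 a4 : Γ}, a1 * a2 = k1 * (a3 * a4) → ∀ x y : Γ, x * (a1 * a2) * y = k1 * (x * (a3 * a4) * y) := by
        intro a1 a2 a3 a4 h x y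
        rw [h, ← mul_assoc x, c1]; simp only [mul_assoc]
      have f2 : ∀ x y : Γ, x * k2 * y = k2 * (x * y) := fun x y => by rw [c2]; simp only [mul_assoc]
      have e1 : ⁅Z1 * A, Z2 * B⁆ = k1 * k2 * (Z1 * Z2 * C * Z1⁻¹ * Z2⁻¹) := by
        calc ⁅Z1 * A, Z2 * B⁆ = Z1 * (A * Z2) * (B * A⁻¹ * Z1⁻¹ * B⁻¹ * Z2⁻¹) := by
              rw [commutatorElement_def]; group
          _ = k1 * (Z1 * (Z2 * A) * (B * A⁻¹ * Z1⁻¹ * B⁻¹ * Z2⁻¹)) := f1 m1 _ _
          _ = k1 * (Z1 * Z2 * (A * B * A⁻¹ * B⁻¹) * Z1⁻¹ * (Z1 * B) * (Z1⁻¹ * B⁻¹ * Z2⁻¹)) := by group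
          _ = k1 * (Z1 * Z2 * C * Z1⁻¹ * (k2 * (B * Z1)) * (Z1⁻¹ * B⁻¹ * Z2⁻¹)) := by
              rw [m2, ← commutatorElement_def, ← hCdef]
          _ = k1 * (Z1 * Z2 * C * Z1⁻¹ * k2 * (B * Z1 * (Z1⁻¹ * B⁻¹ * Z2⁻¹))) := by group
          _ = _ := by rw [f2]; group
      rw [← e0, show Z1 * Z2 * C = C * (Z1 * Z2) from (cZ1C.mul_left cZ2C).eq, cZ12.eq] at e1
      apply mul_right_cancel (b := C)
      rw [one_mul]
      exact (e1.trans (by group)).symm
    rw [κ_swap za2] at e3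
    exact inv_mul_eq_one.1 e3
  have hZcube : Z1 ^ 3 = 1 := by
    have hk : C ^ 3 ∈ σ.ker := by rw [MonoidHom.mem_ker, map_pow, hC, D.c_cube]
    have e : C ^ 3 * A = Z1 ^ 3 * (A * C ^ 3) :=
      cube_move cZ1C (by rw [hZ1def, commutatorElement_def]; group)
    rw [hc _ hk A] at e
    exact right_eq_mul.1 e
  have κ_three : ∀ {z y : Q}, Commute z y → z ^ 3 = 1 → κ z y ^ 3 = 1 := by
    intro z y h hz
    have e : κ (z ^ 3) y = κ z y ^ 3 := by
      rw [pow_succ z, sq, κ_mulL (h.mul_left h) h, κ_mulL h h, pow_succ, sq]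
    rw [← e, hz, κ_swap (Commute.one_right y), κ_one, inv_one]
  have κ_sqL : ∀ {z y : Q}, Commute z y → κ (z ^ 2) y = κ z y * κ z y := fun {z y} h => by
    rw [sq]; exact κ_mulL h h
  have hu3 : u ^ 3 = 1 := κ_three D.z1a D.z1_cube
  have hv3 : v ^ 3 = 1 := κ_three D.z1b D.z1_cube
  have hw3 : w ^ 3 = 1 := κ_three D.z2b D.z2_cube
  -- the values on the images under the normalizing element
  have cz : ∀ {z : Q}, Commute z z1 → Commute z z2 → ∀ i j : ℕ, Commute z (z1 ^ i * z2 ^ j) :=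
    fun h1 h2 i j => (h1.pow_right i).mul_right (h2.pow_right j)
  have img : ∀ {z : Q}, Commute z a → Commute z b → Commute z c → Commute z z1 → Commute z z2 →
      κ z c = 1 → κ z z1 = 1 → κ z z2 = 1 →
      κ z (a * b ^ 2 * c ^ 2 * z1 * z2) = κ z a * (κ z b * κ z b) ∧
      κ z (a * b * z1 ^ 2 * z2) = κ z a * κ z b := by
    intro z ha hb hcc h1 h2 e e1 e2
    refine ⟨?_, ?_⟩
    · rw [κ_mulR (((ha.mul_right (hb.pow_right 2)).mul_right (hcc.pow_right 2)).mul_right h1) h2,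
        κ_mulR ((ha.mul_right (hb.pow_right 2)).mul_right (hcc.pow_right 2)) h1,
        κ_mulR (ha.mul_right (hb.pow_right 2)) (hcc.pow_right 2), κ_mulR ha (hb.pow_right 2),
        sq, sq, κ_mulR hb hb, κ_mulR hcc hcc, e, e1, e2, mul_one, mul_one, mul_one, mul_one]
    · rw [κ_mulR ((ha.mul_right hb).mul_right (h1.pow_right 2)) h2, κ_mulR (ha.mul_right hb) (h1.pow_right 2),
        κ_mulR ha hb, sq, κ_mulR h1 h1, e1, e2, mul_one, mul_one, mul_one]
  obtain ⟨i1a, i1b⟩ := img D.z1a D.z1b z1c (Commute.refl _) z12 k1c k11 k12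
  obtain ⟨i2a, i2b⟩ := img D.z2a D.z2b z2c z12.symm (Commute.refl _) k2c k21 k22
  have X1a : Commute z1 (a * b ^ 2 * c ^ 2 * z1 * z2) :=
    (((D.z1a.mul_right (D.z1b.pow_right 2)).mul_right (z1c.pow_right 2)).mul_right (Commute.refl _)).mul_right z12
  have X2a : Commute z2 (a * b ^ 2 * c ^ 2 * z1 * z2) :=
    (((D.z2a.mul_right (D.z2b.pow_right 2)).mul_right (z2c.pow_right 2)).mul_right z12.symm).mul_right (Commute.refl _)
  have X1b : Commute z1 (a * b * z1 ^ 2 * z2) :=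
    ((D.z1a.mul_right D.z1b).mul_right ((Commute.refl z1).pow_right 2)).mul_right z12
  have X2b : Commute z2 (a * b * z1 ^ 2 * z2) :=
    ((D.z2a.mul_right D.z2b).mul_right (z12.symm.pow_right 2)).mul_right (Commute.refl _)
  have E1 : u = u * (v * v) * (u * (v * v)) * (v * (w * w)) := by
    conv_lhs => rw [hu, κ_conj D.z1a D.gz1 D.ga, κ_mulL (X1a.pow_left 2) X2a, κ_sqL X1a, i1a, i2a]
    rw [hv2]
  have E2 : v = u * v * (u * v) * (v * w) := by
    conv_lhs => rw [hv, κ_conj D.z1b D.gz1 D.gb, κ_mulL (X1b.pow_left 2) X2b, κ_sqL X1b, i1b, i2b]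
    rw [hv2]
  have E3 : w = u * v * (u * v) * (v * w * (v * w)) := by
    conv_lhs => rw [hw, κ_conj D.z2b D.gz2 D.gb, κ_mulL (X1b.pow_left 2) (X2b.pow_left 2),
      κ_sqL X1b, κ_sqL X2b, i1b, i2b]
    rw [hv2]
  have hv1 : v = 1 ∧ w = u := by
    have a2 : v = u * u * w := by
      calc v = u * v * (u * v) * (v * w) := E2
        _ = u * u * w * v ^ 3 := by rw [pow_succ, sq]; ac_rfl
        _ = _ := by rw [hv3, mul_one]
    have a3 : 1 = v * v := by
      apply mul_left_cancel (a := w)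
      calc w * 1 = u * v * (u * v) * (v * w * (v * w)) := by rw [mul_one]; exact E3
        _ = (u * u * w) * (v * w) * v ^ 3 := by rw [pow_succ, sq]; ac_rfl
        _ = v * v * w := by rw [← a2, hv3, mul_one]; ac_rfl
        _ = w * (v * v) := mul_comm _ _
    have hv1 : v = 1 := by
      calc v = v * 1 := (mul_one v).symm
        _ = v ^ 3 := by rw [a3, pow_succ, sq]; ac_rfl
        _ = 1 := hv3
    refine ⟨hv1, ?_⟩
    rw [hv1] at a2
    calc w = u ^ 3 * w := by rw [hu3, one_mul]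
      _ = u * (u * u * w) := by rw [pow_succ, sq]; ac_rfl
      _ = u := by rw [← a2, mul_one]
  obtain ⟨rv, rw'⟩ := hv1
  set T := zpowers (u : Γ) with hT
  have mT : ∀ {k : σ.ker}, k = u ∨ k = 1 ∨ k = u⁻¹ → (k : Γ) ∈ T := by
    rintro k (rfl | rfl | rfl)
    · exact mem_zpowers _
    · exact one_mem _
    · rw [Subgroup.coe_inv]; exact inv_mem (mem_zpowers _)
  have hA3 : C ^ 3 ∈ T := by
    have cA : C * A = Z1 * A * C := by rw [hZ1def, commutatorElement_def]; group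
    have bA : B * A * B⁻¹ = C⁻¹ * A := by rw [hCdef, commutatorElement_def]; group
    have aC : A * C⁻¹ = C⁻¹ * Z1 * A := by
      calc A * C⁻¹ = C⁻¹ * (C * A) * C⁻¹ := by group
        _ = _ := by rw [cA]; group
    have aZ : A * Z1 = ((κ z1 a)⁻¹ : σ.ker) * (Z1 * A) := by
      rw [← κ_swap D.z1a]; exact move D.z1a.symm hA hZ1
    set k : Γ := (((κ z1 a)⁻¹ : σ.ker) : Γ) with hk
    have hkc : ∀ y, y * k = k * y := hc _ (Subtype.prop _)
    have e1 : (C⁻¹ * A) ^ 3 = k * (Z1 ^ 3 * (C ^ 3)⁻¹) * A ^ 3 := by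
      have cz1 : Z1 * C⁻¹ = C⁻¹ * Z1 := (cZ1C.inv_right).eq
      calc (C⁻¹ * A) ^ 3 = C⁻¹ * (A * C⁻¹) * (A * C⁻¹) * A := by rw [pow_succ, sq]; group
        _ = C⁻¹ * (C⁻¹ * Z1 * A) * (C⁻¹ * Z1 * A) * A := by rw [aC]
        _ = C⁻¹ * C⁻¹ * Z1 * (A * C⁻¹) * Z1 * A * A := by group
        _ = C⁻¹ * C⁻¹ * (Z1 * C⁻¹) * Z1 * (A * Z1) * A * A := by rw [aC]; group
        _ = C⁻¹ * C⁻¹ * C⁻¹ * Z1 * (Z1 * k) * Z1 * A ^ 3 := by
          rw [aZ, cz1, pow_succ A, sq]; group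
        _ = k * (C⁻¹ * C⁻¹ * C⁻¹ * Z1 * Z1 * Z1) * A ^ 3 := by
          rw [hkc Z1]; simp only [← mul_assoc]; rw [hkc (C⁻¹ * C⁻¹ * C⁻¹ * Z1)]; simp only [mul_assoc]
        _ = k * ((C ^ 3)⁻¹ * Z1 ^ 3) * A ^ 3 := by rw [pow_succ C, sq, pow_succ Z1, sq]; group
        _ = _ := by rw [((cZ1C.pow_pow 3 3).inv_right).eq]
    have e2 : (C⁻¹ * A) ^ 3 = (κ b z2 : Γ) * A ^ 3 := by
      rw [← bA, conj_pow, κ_val zb2.symm hB (show σ (A ^ 3) = z2 by rw [map_pow, hA]; exact D.a_cube), commutatorElement_def]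
      group
    rw [e1, hZcube, one_mul] at e2
    have e3 := mul_right_cancel e2
    have e4 : C ^ 3 = (κ b z2 : Γ)⁻¹ * k := by rw [← e3]; group
    rw [e4, κ_swap D.z2b]
    exact mul_mem (inv_mem (mT (Or.inr (Or.inr (congrArg _ rw'))))) (mT (Or.inr (Or.inr rfl)))
  have hZ2cube : Z2 ^ 3 = 1 := by
    have hk : C ^ 3 ∈ σ.ker := by rw [MonoidHom.mem_ker, map_pow, hC, D.c_cube]
    have e : C ^ 3 * B = Z2 ^ 3 * (B * C ^ 3) :=
      cube_move cZ2C (by rw [hZ2def, commutatorElement_def]; group)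
    rw [hc _ hk B] at e
    exact right_eq_mul.1 e
  set gens : Set Γ := {C, Z1, Z2, (u : Γ)} with hgens
  set M := closure gens with hM
  have form : ∀ x ∈ M, ∃ i j k l : ℕ, x = C ^ i * Z1 ^ j * Z2 ^ k * (u : Γ) ^ l := by
    intro x hx
    rw [hM, ← mem_toSubmonoid, closure_toSubmonoid_of_finite] at hx
    induction hx using Submonoid.closure_induction with
    | mem y hy =>
      rcases hy with rfl | rfl | rfl | rfl
      · exact ⟨1, 0, 0, 0, by simp⟩
      · exact ⟨0, 1, 0, 0, by simp⟩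
      · exact ⟨0, 0, 1, 0, by simp⟩
      · exact ⟨0, 0, 0, 1, by simp⟩
    | one => exact ⟨0, 0, 0, 0, by simp⟩
    | mul y z _ _ ihy ihz =>
      obtain ⟨i, j, k, l, rfl⟩ := ihy
      obtain ⟨i', j', k', l', rfl⟩ := ihz
      refine ⟨i + i', j + j', k + k', l + l', ?_⟩
      have cu : ∀ y : Γ, Commute ((u : Γ) ^ l) y := fun y => (hc _ (pow_mem u.2 l) y).symm
      calc C ^ i * Z1 ^ j * Z2 ^ k * (u : Γ) ^ l * (C ^ i' * Z1 ^ j' * Z2 ^ k' * (u : Γ) ^ l')
          = C ^ i * Z1 ^ j * Z2 ^ k * ((u : Γ) ^ l * (C ^ i' * Z1 ^ j' * Z2 ^ k')) * (u : Γ) ^ l' := by group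
        _ = C ^ i * Z1 ^ j * (Z2 ^ k * (C ^ i' * Z1 ^ j')) * Z2 ^ k' * (u : Γ) ^ l * (u : Γ) ^ l' := by
            rw [(cu _).eq]; group
        _ = C ^ i * (Z1 ^ j * C ^ i') * Z1 ^ j' * Z2 ^ k * Z2 ^ k' * (u : Γ) ^ l * (u : Γ) ^ l' := by
            rw [((cZ2C.pow_pow k i').mul_right (cZ12.symm.pow_pow k j')).eq]; group
        _ = _ := by rw [(cZ1C.pow_pow j i').eq]; simp only [pow_add, mul_assoc]
  have hCm : C ∈ M := subset_closure (Or.inl rfl)
  have hZ1m : Z1 ∈ M := subset_closure (Or.inr (Or.inl rfl))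
  have hZ2m : Z2 ∈ M := subset_closure (Or.inr (Or.inr (Or.inl rfl)))
  have hum : (u : Γ) ∈ M := subset_closure (Or.inr (Or.inr (Or.inr rfl)))
  have hTM : T ≤ M := (zpowers_le).2 hum
  have hnorm : ∀ {x : Q} {X : Γ}, σ X = x → Commute z1 x → Commute z2 x → (κ z1 x : Γ) ∈ T →
      (κ z2 x : Γ) ∈ T → X * C * X⁻¹ ∈ M → ∀ m ∈ M, X * m * X⁻¹ ∈ M := by
    intro x X hX h1 h2 t1 t2 t3 m hm
    induction hm using closure_induction with
    | mem y hy =>
      rcases hy with rfl | rfl | rfl | rfl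
      · exact t3
      · rw [move h1.symm hX hZ1, mul_assoc, mul_inv_cancel_right, κ_swap h1, Subgroup.coe_inv]
        exact mul_mem (inv_mem (hTM t1)) hZ1m
      · rw [move h2.symm hX hZ2, mul_assoc, mul_inv_cancel_right, κ_swap h2, Subgroup.coe_inv]
        exact mul_mem (inv_mem (hTM t2)) hZ2m
      · rw [hc _ u.2, mul_inv_cancel_right]; exact hum
    | one => simp
    | mul y z _ _ ihy ihz => rw [← conj_mul]; exact mul_mem ihy ihz
    | inv y _ ih => rw [← conj_inv]; exact inv_mem ih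
  have nA : ∀ m ∈ M, A * m * A⁻¹ ∈ M := hnorm hA D.z1a D.z2a (mT (Or.inl rfl))
    (by rw [hv2, rv]; exact one_mem _) (by
      have : A * C * A⁻¹ = Z1⁻¹ * C := by rw [hZ1def, commutatorElement_def]; group
      rw [this]
      exact mul_mem (inv_mem hZ1m) hCm)
  have nB : ∀ m ∈ M, B * m * B⁻¹ ∈ M := hnorm hB D.z1b D.z2b (by rw [← hv, rv]; exact one_mem _)
    (mT (Or.inl rw')) (by
      have : B * C * B⁻¹ = Z2⁻¹ * C := by rw [hZ2def, commutatorElement_def]; group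
      rw [this]
      exact mul_mem (inv_mem hZ2m) hCm)
  set K := closure ({A, B} : Set Γ) with hK
  have hKM : ∀ x ∈ K, ∀ m ∈ M, x * m * x⁻¹ ∈ M := by
    intro x hx
    rw [hK, ← mem_toSubmonoid, closure_toSubmonoid_of_finite] at hx
    induction hx using Submonoid.closure_induction with
    | mem y hy => rcases hy with rfl | rfl; exacts [nA, nB]
    | one => simp
    | mul y z _ _ ihy ihz =>
      intro m hm
      rw [show y * z * m * (y * z)⁻¹ = y * (z * m * z⁻¹) * y⁻¹ by group]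
      exact ihy _ (ihz m hm)
  have hKK : ⁅K, K⁆ ≤ M := by
    rw [commutator_le]
    have step : ∀ g' : Γ, g' ∈ K → (∀ y ∈ ({A, B} : Set Γ), ⁅y, g'⁆ ∈ M) → ∀ x ∈ K, ⁅x, g'⁆ ∈ M := by
      intro g' _ hg x hx
      rw [hK, ← mem_toSubmonoid, closure_toSubmonoid_of_finite] at hx
      induction hx using Submonoid.closure_induction with
      | mem y hy => exact hg y hy
      | one => rw [commutatorElement_one_left]; exact one_mem _
      | mul y z hy _ ihy ihz =>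
        rw [show ⁅y * z, g'⁆ = y * ⁅z, g'⁆ * y⁻¹ * ⁅y, g'⁆ by simp only [commutatorElement_def]; group]
        refine mul_mem (hKM y ?_ _ ihz) ihy
        rw [hK, ← mem_toSubmonoid, closure_toSubmonoid_of_finite]; exact hy
    intro x hx y hy
    refine step y hy (fun z hz => ?_) x hx
    rw [← commutatorElement_inv]
    refine inv_mem (step z (subset_closure hz) (fun r hr => ?_) y hy)
    rcases hr with rfl | rfl <;> rcases hz with rfl | rfl
    · rw [commutatorElement_self]; exact one_mem _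
    · exact hCm
    · rw [← commutatorElement_inv]; exact inv_mem hCm
    · rw [commutatorElement_self]; exact one_mem _
  refine ⟨u, by rw [← SubmonoidClass.coe_pow, hu3, Subgroup.coe_one], fun x hx n hn => ?_⟩
  set H := (S : Subgroup Q).comap σ with hH
  have hxH : x ∈ H := by rw [hH, Subgroup.mem_comap, MonoidHom.mem_ker.1 hx]; exact one_mem _
  have h1 := Cfsg.Agent.Transfer.pow_index_eq_one_of_mem_center
    (Abelianization.of : H →* Abelianization H) ⟨x, hxH⟩ (hσ.2.1 hx) (hσ.2.2 hx)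
  rw [← map_pow, ← MonoidHom.mem_ker, Abelianization.ker_of] at h1
  have h2 : x ^ H.index ∈ ⁅H, H⁆ := by
    rw [← Subgroup.map_subtype_commutator]
    exact ⟨_, h1, rfl⟩
  have hle : H ≤ K ⊔ σ.ker := by
    intro y hy
    rw [← Subgroup.comap_map_eq, Subgroup.mem_comap, hK, MonoidHom.map_closure, Set.image_pair, hA, hB, ← hS]
    exact hy
  have h3 : x ^ H.index ∈ M :=
    hKK (FGS4.SchurSylow.commutator_sup_center_le hσ.2.1 (commutator_mono hle hle h2))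
  obtain ⟨i, j, k, l, e⟩ := form _ h3
  have e' : σ (x ^ H.index) = 1 := by rw [map_pow, MonoidHom.mem_ker.1 hx, one_pow]
  rw [e, map_mul, map_mul, map_mul, map_pow, map_pow, map_pow, map_pow, hC, hZ1, hZ2,
    MonoidHom.mem_ker.1 u.2, one_pow, mul_one,
    pow_eq_pow_mod i D.c_cube, pow_eq_pow_mod j D.z1_cube, pow_eq_pow_mod k D.z2_cube] at e'
  obtain ⟨di, dj, dk⟩ :=
    D.indep _ _ _ (Nat.mod_lt i (by norm_num)) (Nat.mod_lt j (by norm_num)) (Nat.mod_lt k (by norm_num)) e'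
  have hmem : x ^ H.index ∈ T := by
    obtain ⟨i, rfl⟩ := Nat.dvd_of_mod_eq_zero di
    obtain ⟨j, rfl⟩ := Nat.dvd_of_mod_eq_zero dj
    obtain ⟨k, rfl⟩ := Nat.dvd_of_mod_eq_zero dk
    rw [e, pow_mul, pow_mul, pow_mul, hZcube, hZ2cube, one_pow, one_pow, mul_one, mul_one]
    exact mul_mem (pow_mem hA3 _) (pow_mem (mem_zpowers _) _)
  have hcop : Nat.Coprime (orderOf x) H.index := by
    rw [hn, hH, Subgroup.index_comap_of_surjective _ hσ.1]
    exact Nat.Coprime.pow_left n ((Nat.prime_three.coprime_iff_not_dvd).2 S.not_dvd_index)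
  obtain ⟨r, hr⟩ := exists_pow_eq_self_of_coprime hcop.symm
  rw [← hr]
  exact pow_mem hmem r

end Cfsg.Agent.Janko3.Three
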