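/-
The Schur multiplier of `J₃` is cyclic of order three.
-/
import Cfsg.Agent.Janko3.Inv
import Cfsg.Agent.Janko3.SchurDefs
import Cfsg.Agent.Janko3.SchurThree
import Cfsg.Agent.FGS2.J2.SchurTwoClass
import Cfsg.Prelude.Def_KGroupFacts

set_option autoImplicit false

namespace Cfsg.Agent.Janko3

open Cfsg.Spor
open Cfsg.Agent.Janko1 (allFrom allFrom_zero allFrom_iff)
open FGS4.SchurSylow
open scoped commutatorElement

variable {F : Type*} [Field F] [d : F4Data F]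

theorem fin_Q3 : Finite (Q3 F) :=
  Nat.finite_of_card_ne_zero (by rw [show Nat.card (Q3 F) = 50232960 from card_J3]; norm_num)

/-- An element of the Sylow 2-subgroup by its index. -/
noncomputable def el2 (F : Type*) [Field F] [F4Data F] (i : ℕ) : Q3 F :=
  if h : i < 128 then (CD F).s ⟨i, h⟩ else 1

theorem el2_mul {i j : ℕ} (hi : i < 128) (hj : j < 128) :
    sMul (i * 128 + j) < 128 ∧ el2 F i * el2 F j = el2 F (sMul (i * 128 + j)) := by
  obtain ⟨ht, e⟩ := (CD F).s_mul ⟨i, hi⟩ ⟨j, hj⟩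
  exact ⟨ht, by rw [el2, el2, el2, dif_pos hi, dif_pos hj, dif_pos ht]; exact e⟩

theorem el2_one : el2 F sElOne = 1 := by
  rw [el2, dif_pos misc2.2.2.2.2.1]; exact (CD F).s_one

theorem el2_rep {i : ℕ} (hi : i < 128) : Rep (el2 F i) (sM2 i) := by
  rw [el2, dif_pos hi]; exact (CD F).s_rep ⟨i, hi⟩

/-- A generator of the Sylow 2-subgroup. -/
noncomputable def gen2 (F : Type*) [Field F] [F4Data F] (a : ℕ) : Q3 F := el2 F (mGen.getD a 0)

theorem two_facts : (∀ a, a < 7 → mGen.getD a 0 < 128) ∧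
    (∀ a b, b < a → a < 7 → iW [a, b] = iW (b :: FGS2.J2.Collect.word mTab a b)) ∧
    (∀ w ∈ mSqs, invTwo (iW w) = true ∧ ∀ c ∈ w, c < 7) ∧
    (∀ k, k < mFus.length → mFusBy.getD k 0 < 1920 ∧
      fusEq k (mFus.getD k default).1 (mFus.getD k default).2.2.1 = true ∧
      fusEq k (mFus.getD k default).2.1 (mFus.getD k default).2.2.2 = true ∧
      ∀ c ∈ (mFus.getD k default).1 ++ (mFus.getD k default).2.1 ++ (mFus.getD k default).2.2.1 ++
        (mFus.getD k default).2.2.2, c < 7) ∧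
    (∀ x ∈ mEight, invTwo x = true) ∧ mEight.length = 3 ∧
    invTwo (sMul (mEight.getD 0 0 * 128 + mEight.getD 1 0)) = true ∧
    invTwo (sMul (mEight.getD 0 0 * 128 + mEight.getD 2 0)) = true ∧
    invTwo (sMul (mEight.getD 1 0 * 128 + mEight.getD 2 0)) = true ∧
    invTwo (sMul (sMul (mEight.getD 0 0 * 128 + mEight.getD 1 0) * 128 + mEight.getD 2 0)) = true := by
  have h := twoTest_ok
  simp only [twoTest, Bool.and_eq_true, List.all_eq_true, List.mem_range, decide_eq_true_eq, Nat.blt_eq] at h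
  obtain ⟨⟨⟨⟨⟨⟨⟨⟨⟨h1, h2⟩, h3⟩, h4⟩, h5⟩, h6⟩, h7⟩, h8⟩, h9⟩, h10⟩ := h
  exact ⟨h1, fun a b hb ha => Nat.eq_of_beq_eq_true (h2 a ha b hb), h3,
    fun k hk => ⟨(h4 k hk).1.1.1, (h4 k hk).1.1.2, (h4 k hk).1.2, (h4 k hk).2⟩, h6,
    Nat.eq_of_beq_eq_true h5, h7, h8, h9, h10⟩

theorem ev_gen2 : ∀ w : List ℕ, (∀ c ∈ w, c < 7) →
    iW w < 128 ∧ FGS2.J2.Collect.ev (gen2 F) w = el2 F (iW w)
  | [], _ => ⟨misc2.2.2.2.2.1, by rw [FGS2.J2.Collect.ev_nil, iW, el2_one]⟩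
  | a :: w, h => by
    obtain ⟨hw, e⟩ := ev_gen2 w fun c hc => h c (List.mem_cons_of_mem _ hc)
    obtain ⟨ht, e2⟩ := el2_mul (F := F) (two_facts.1 a (h a List.mem_cons_self)) hw
    exact ⟨ht, by rw [FGS2.J2.Collect.ev_cons, e, gen2, e2, iW]⟩

theorem inv_el2 {i : ℕ} (h : invTwo i = true) : i < 128 ∧ orderOf (el2 F i) = 2 := by
  simp only [invTwo, Bool.and_eq_true, Nat.blt_eq, Bool.not_eq_true'] at h
  obtain ⟨⟨hi, hne⟩, hsq⟩ := h
  refine ⟨hi, orderOf_eq_prime ?_ fun e => ?_⟩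
  · rw [sq, (el2_mul hi hi).2, Nat.eq_of_beq_eq_true hsq, el2_one]
  · rw [el2, dif_pos hi, ← (CD F).s_one] at e
    have e2 := congrArg Fin.val ((CD F).s_inj e)
    simp only at e2
    rw [e2, Nat.beq_refl] at hne
    exact Bool.noConfusion hne

theorem inv_class {i : ℕ} (h : invTwo i = true) : ∃ k, k * tQ F * k⁻¹ = el2 F i :=
  isConj_iff.1 (invol_conj (inv_el2 h).2)

theorem no_kernel_two {Δ : Type*} [Group Δ] [Finite Δ] {τ : Δ →* Q3 F} (hτ : Cfsg.IsStemExtension τ) {z : Δ}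
    (hz : z ∈ τ.ker) (hzo : orderOf z = 2) (hker : ∀ w ∈ τ.ker, w * w = 1) : False := by
  haveI := fin_Q3 (F := F)
  haveI : Fact (Nat.Prime 2) := ⟨Nat.prime_two⟩
  obtain ⟨hgen, hrel, hsqs, hfus, h8, h8l, p01, p02, p12, p012⟩ := two_facts
  have m8 : ∀ j, j < 3 → invTwo (mEight.getD j 0) = true := fun j hj => by
    rw [List.getD_eq_getElem _ _ (by omega)]; exact h8 _ (List.getElem_mem _)
  have l8 : ∀ j, j < 3 → mEight.getD j 0 < 128 := fun j hj => (inv_el2 (F := F) (m8 j hj)).1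
  have sqt : tQ F * tQ F = 1 := by
    rw [← sq]; have h := pow_orderOf_eq_one (tQ F); rwa [tQ_spec.2] at h
  obtain ⟨U, hU⟩ := hτ.1 (tQ F)
  have hU2 : U * U = 1 := by
    refine lift_involution hτ hker sqt (inv_class (m8 0 (by norm_num))) (inv_class (m8 1 (by norm_num)))
      (inv_class (m8 2 (by norm_num))) ?_ ?_ ?_ ?_ hU
    · rw [(el2_mul (l8 0 (by norm_num)) (l8 1 (by norm_num))).2]; exact inv_class p01
    · rw [(el2_mul (l8 0 (by norm_num)) (l8 2 (by norm_num))).2]; exact inv_class p02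
    · rw [(el2_mul (l8 1 (by norm_num)) (l8 2 (by norm_num))).2]; exact inv_class p12
    · rw [(el2_mul (l8 0 (by norm_num)) (l8 1 (by norm_num))).2,
        (el2_mul (el2_mul (F := F) (l8 0 (by norm_num)) (l8 1 (by norm_num))).1 (l8 2 (by norm_num))).2]
      exact inv_class p012
  have hinv : ∀ w ∈ mSqs, ∀ X : Δ, τ X = FGS2.J2.Collect.ev (gen2 F) w → X * X = 1 := by
    intro w hw X hX
    rw [(ev_gen2 w (hsqs w hw).2).2] at hX
    rw [sq_eq_of_isConj hτ hker sqt (inv_class (hsqs w hw).1) hU hX, hU2]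
  have hsyl := sylow_two (F := F)
  obtain ⟨P, hP⟩ := hsyl
  have hclo : Subgroup.closure (FGS2.J2.Collect.tail (gen2 F) 0) = (CD F).S := by
    refine le_antisymm ((Subgroup.closure_le _).2 ?_) ?_
    · rintro x ⟨j, -, hj, rfl⟩
      rw [SetLike.mem_coe, gen2, el2, dif_pos (hgen j hj), ← SetLike.mem_coe, (CD F).s_set]
      exact ⟨_, rfl⟩
    · intro g hg
      rw [← SetLike.mem_coe, (CD F).s_set] at hg
      obtain ⟨i, rfl⟩ := hg
      obtain ⟨m, -, hm⟩ := some_of_not_all (by simpa [genTwoTest] using allFrom_zero genTwo_ok i.2)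
      simp only [Bool.not_eq_false'] at hm
      have hw : ∀ c ∈ maskW m, c < 7 := fun c hc => List.mem_range.1 (List.mem_of_mem_filter hc)
      have e := (ev_gen2 (F := F) (maskW m) hw).2
      rw [Nat.eq_of_beq_eq_true hm, el2, dif_pos i.2] at e
      rw [show (CD F).s i = FGS2.J2.Collect.ev (gen2 F) (maskW m) from e.symm]
      refine list_prod_mem fun y hy => ?_
      obtain ⟨c, hc, rfl⟩ := List.mem_map.1 hy
      exact Subgroup.subset_closure ⟨c, Nat.zero_le _, hw c hc, rfl⟩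
  refine FGS2.J2.Collect.no_kernel hτ hker mCert mCert_ok (gen2 F) ?_ hinv ?_ P (hP.trans hclo.symm)
    (by rw [hP]; exact (CD F).s_card) hz hzo
  · intro a b hb ha
    have hw : ∀ c ∈ b :: FGS2.J2.Collect.word mTab a b, c < 7 := by
      intro c hc
      rcases List.mem_cons.1 hc with rfl | hc
      · omega
      have := mCert_ok
      simp only [FGS2.J2.Collect.Cert.ok, Bool.and_eq_true] at this
      have ht := List.all_eq_true.1 (List.all_eq_true.1 this.1.1.1.1.1 a (List.mem_range.2 ha)) b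
        (List.mem_range.2 (by omega))
      simp only [List.all_eq_true, Bool.and_eq_true, decide_eq_true_eq] at ht
      exact (ht c hc).1
    have e1 := (ev_gen2 (F := F) [a, b] (by simp; omega)).2
    rw [hrel a b hb ha, ← (ev_gen2 (F := F) _ hw).2, FGS2.J2.Collect.ev_cons, FGS2.J2.Collect.ev_single,
      FGS2.J2.Collect.ev_cons] at e1
    exact e1
  · intro q hq
    obtain ⟨k, hk, rfl⟩ := List.getElem_of_mem hq
    have hf := hfus k hk
    rw [List.getD_eq_getElem mFus default hk] at hf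
    obtain ⟨hby, f1, f2, hlt⟩ := hf
    simp only [List.mem_append] at hlt
    obtain ⟨g, rg⟩ : ∃ g : Q3 F, Rep g (fusM k) :=
      ⟨_, ((CD F).a_rep ⟨mFusBy.getD k 0 / 32, by omega⟩).pmul
        ((CD F).q_rep ⟨mFusBy.getD k 0 % 32, Nat.mod_lt _ (by norm_num)⟩)⟩
    refine ⟨g, ?_, ?_⟩
    all_goals simp only [show mCert.fus = mFus from rfl] at *
    · obtain ⟨l1, e1⟩ := ev_gen2 (F := F) _ (fun c hc => hlt c (Or.inl (Or.inl (Or.inl hc))))
      obtain ⟨l2, e2⟩ := ev_gen2 (F := F) _ (fun c hc => hlt c (Or.inl (Or.inr hc)))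
      exact ((congrArg (g * ·) e1).trans
        ((rg.pmul (el2_rep l1)).uniq (M4.eq_of_beq f1 ▸ (el2_rep l2).pmul rg))).trans (congrArg (· * g) e2.symm)
    · obtain ⟨l1, e1⟩ := ev_gen2 (F := F) _ (fun c hc => hlt c (Or.inl (Or.inl (Or.inr hc))))
      obtain ⟨l2, e2⟩ := ev_gen2 (F := F) _ (fun c hc => hlt c (Or.inr hc))
      exact ((congrArg (g * ·) e1).trans
        ((rg.pmul (el2_rep l1)).uniq (M4.eq_of_beq f2 ▸ (el2_rep l2).pmul rg))).trans (congrArg (· * g) e2.symm)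

theorem rep_cA3 {v : ℕ} (h : decOk v = true) (h3 : v % 4 < 3) : ∃ g : Q3 F, Rep g (cA3 v) := by
  obtain ⟨g, hg⟩ := rep_dec (F := F) (G := scM (v % 4) (decM v)) h h3 (by simp [M4.beq])
  exact ⟨g, hg.cn⟩

theorem exists_three : ∃ (a b g : Q3 F) (P : Sylow 3 (Q3 F)),
    Three.Data (Q3 F) a b g ∧ (P : Subgroup (Q3 F)) = Subgroup.closure {a, b} := by
  haveI := fin_Q3 (F := F)
  haveI : Fact (Nat.Prime 3) := ⟨Nat.prime_three⟩
  have h := threeTest_ok
  simp only [threeTest, eq2, Bool.and_eq_true, List.all_cons, List.all_nil, Nat.blt_eq, and_true] at h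
  obtain ⟨⟨⟨⟨⟨⟨⟨⟨⟨⟨⟨⟨⟨⟨⟨⟨⟨⟨h0, hc⟩, hz1⟩, hz2⟩, c1a⟩, c1b⟩, c2a⟩, c2b⟩, o1⟩, o2⟩, oc⟩, oa⟩, hone⟩, ga⟩,
    gb⟩, gz1⟩, gz2⟩, hid⟩, hidone⟩ := h
  obtain ⟨⟨pA, qA⟩, ⟨pB, qB⟩, ⟨pC, qC⟩, ⟨p1, q1⟩, ⟨p2, q2⟩, ⟨pG, qG⟩⟩ := h0
  obtain ⟨a, ra⟩ := rep_cA3 (F := F) pA qA
  obtain ⟨b, rb⟩ := rep_cA3 (F := F) pB qB
  obtain ⟨c, rc⟩ := rep_cA3 (F := F) pC qC
  obtain ⟨y, r1⟩ := rep_cA3 (F := F) p1 q1
  obtain ⟨z, r2⟩ := rep_cA3 (F := F) p2 q2
  obtain ⟨g, rg⟩ := rep_cA3 (F := F) pG qG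
  have eqp : ∀ {u v : Q3 F} {A B : M4}, Rep u A → Rep v B → M4.beq A B = true → u = v :=
    fun hu hv e => hu.uniq (M4.eq_of_beq e ▸ hv)
  have rpow : ∀ {u : Q3 F} {A : M4}, Rep u A → ∀ n : ℕ, Rep (u ^ n) (ppow A n) := by
    intro u A hu n
    induction n with
    | zero => rw [pow_zero]; exact rep_oneC
    | succ n ih => rw [pow_succ]; exact ih.pmul hu
  have comm_eq : ∀ {u v w : Q3 F}, w * (v * u) = u * v → ⁅u, v⁆ = w := fun {u v w} e => by
    rw [commutatorElement_def, ← e]; group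
  obtain rfl : ⁅a, b⁆ = c := comm_eq (eqp (rc.pmul (rb.pmul ra)) (ra.pmul rb) hc)
  obtain rfl : ⁅⁅a, b⁆, a⁆ = y := comm_eq (eqp (r1.pmul (ra.pmul rc)) (rc.pmul ra) hz1)
  obtain rfl : ⁅⁅a, b⁆, b⁆ = z := comm_eq (eqp (r2.pmul (rb.pmul rc)) (rc.pmul rb) hz2)
  have D : Three.Data (Q3 F) a b g :=
    { z1a := eqp (r1.pmul ra) (ra.pmul r1) c1a
      z1b := eqp (r1.pmul rb) (rb.pmul r1) c1b
      z2a := eqp (r2.pmul ra) (ra.pmul r2) c2a
      z2b := eqp (r2.pmul rb) (rb.pmul r2) c2b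
      z1_cube := eqp (rpow r1 3) rep_oneC o1
      z2_cube := eqp (rpow r2 3) rep_oneC o2
      c_cube := eqp (rpow rc 3) rep_oneC oc
      a_cube := eqp (rpow ra 3) r2 oa
      ga := eqp (rg.pmul ra) (((((ra.pmul (rpow rb 2)).pmul (rpow rc 2)).pmul r1).pmul r2).pmul rg) ga
      gb := eqp (rg.pmul rb) ((((ra.pmul rb).pmul (rpow r1 2)).pmul r2).pmul rg) gb
      gz1 := eqp (rg.pmul r1) (((rpow r1 2).pmul r2).pmul rg) gz1
      gz2 := eqp (rg.pmul r2) (((rpow r1 2).pmul (rpow r2 2)).pmul rg) gz2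
      indep := fun i j k hi hj hk e => by
        have t := allFrom_zero ind_ok (show 9 * i + 3 * j + k < 27 by omega)
        simp only [indTest, Bool.or_eq_true, Bool.not_eq_true'] at t
        rcases t with t | t
        · have := Nat.eq_of_beq_eq_true t; omega
        · exfalso
          rw [show (9 * i + 3 * j + k) / 9 = i by omega, show (9 * i + 3 * j + k) / 3 % 3 = j by omega,
            show (9 * i + 3 * j + k) % 3 = k by omega] at t
          have hr := ((rpow rc i).pmul (rpow r1 j)).mul (rpow r2 k)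
          have hb := bdd_mulM (pmul (ppow (cA3 mC) i) (ppow (cA3 mZ1) j)) (ppow (cA3 mZ2) k)
          exact hr.cn.ne rep_oneC (bdd_cnM hb) (bdd_cnM (by norm_num [Bdd, one4, big]))
            (hr.same hr.cn hb (bdd_cnM hb)).symm (M4.eq_of_beq hone) t e }
  -- the closure has order 243
  let w : ℕ → Q3 F := fun k =>
    a ^ (k / 81 % 3) * b ^ (k / 27 % 3) * ⁅a, b⁆ ^ (k / 9 % 3) * ⁅⁅a, b⁆, a⁆ ^ (k / 3 % 3) * ⁅⁅a, b⁆, b⁆ ^ (k % 3)
  let e : Fin 243 → Q3 F := fun i => w (p3Exp.getD i 0)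
  have spec : ∀ i, i < 243 → cnM (p3M i) = p3M i ∧ sortTest p3M i = true ∧ p3Next.getD i 0 % 256 < 243 ∧
      p3Next.getD i 0 / 256 < 243 ∧ M4.beq (pmul (cA3 mA) (p3M i)) (p3M (p3Next.getD i 0 % 256)) = true ∧
      M4.beq (pmul (cA3 mB) (p3M i)) (p3M (p3Next.getD i 0 / 256)) = true ∧
      Rep (w (p3Exp.getD i 0)) (p3M i) := by
    intro i hi
    have t := allFrom_zero p3_ok hi
    simp only [p3Test, Bool.and_eq_true, Nat.blt_eq] at t
    obtain ⟨⟨⟨⟨⟨⟨t1, t2⟩, t3⟩, t4⟩, t5⟩, t6⟩, t7⟩ := t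
    refine ⟨M4.eq_of_beq t2, t3, t4, t5, t6, t7, ?_⟩
    rw [← M4.eq_of_beq t1]
    exact ((((rpow ra _).pmul (rpow rb _)).pmul (rpow rc _)).pmul (rpow r1 _)).pmul (rpow r2 _)
  have einj : Function.Injective e := fun i j hij => by
    by_contra hne
    exact (spec i i.2).2.2.2.2.2.2.ne (spec j j.2).2.2.2.2.2.2 (bdd_dec _) (bdd_dec _) (spec i i.2).1 (spec j j.2).1
      (sorted_ne (allFrom_iff.2 fun m _ hm => (spec m (by omega)).2.1) i.2 j.2 fun q => hne (Fin.ext q)) hij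
  set T := Subgroup.closure ({a, b} : Set (Q3 F)) with hT
  have ma : a ∈ T := Subgroup.subset_closure (Or.inl rfl)
  have mb : b ∈ T := Subgroup.subset_closure (Or.inr rfl)
  have mc : ∀ {u v : Q3 F}, u ∈ T → v ∈ T → ⁅u, v⁆ ∈ T := fun hu hv => by
    rw [commutatorElement_def]; exact mul_mem (mul_mem (mul_mem hu hv) (inv_mem hu)) (inv_mem hv)
  have he : (T : Set (Q3 F)) = Set.range e := by
    refine Set.Subset.antisymm ?_ ?_
    · intro x hx
      rw [SetLike.mem_coe, hT, ← Subgroup.mem_toSubmonoid, Subgroup.closure_toSubmonoid_of_finite] at hx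
      induction hx using Submonoid.closure_induction_left with
      | one => exact ⟨⟨p3Id, hid⟩, (spec p3Id hid).2.2.2.2.2.2.uniq (M4.eq_of_beq hidone ▸ rep_oneC)⟩
      | mul_left u hu v hv ih =>
        obtain ⟨i, rfl⟩ := ih
        obtain ⟨-, -, n1, n2, t1, t2, hr⟩ := spec i i.2
        rcases hu with rfl | rfl
        · exact ⟨⟨_, n1⟩, (eqp (ra.pmul hr) (spec _ n1).2.2.2.2.2.2 t1).symm⟩
        · exact ⟨⟨_, n2⟩, (eqp (rb.pmul hr) (spec _ n2).2.2.2.2.2.2 t2).symm⟩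
    · rintro x ⟨i, rfl⟩
      exact mul_mem (mul_mem (mul_mem (mul_mem (pow_mem ma _) (pow_mem mb _)) (pow_mem (mc ma mb) _))
        (pow_mem (mc (mc ma mb) ma) _)) (pow_mem (mc (mc ma mb) mb) _)
  have hTc : Nat.card T = 3 ^ 5 := by
    rw [show Nat.card T = Nat.card (T : Set (Q3 F)) from rfl, he, Nat.card_range_of_injective einj, Nat.card_fin]
    norm_num
  obtain ⟨P, hP⟩ := (IsPGroup.of_card hTc : IsPGroup 3 T).exists_le_sylow
  refine ⟨a, b, g, P, D, (Subgroup.eq_of_le_of_card_ge hP ?_).symm⟩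
  rw [hTc, FGS2.J2.SchurTwoClass.sylow_card (show Nat.card (Q3 F) = 50232960 from card_J3) Nat.prime_three
    (k := 5) (by norm_num) (by norm_num) P]

theorem ker_prime {Γ : Type*} [Group Γ] [Finite Γ] (σ : Γ →* Q3 F) (hσ : Cfsg.IsStemExtension σ) {q : ℕ}
    (hq : q.Prime) (hqd : q ∣ Nat.card σ.ker) : q = 3 := by
  haveI := fin_Q3 (F := F)
  haveI := Fact.mk hq
  by_contra h3
  by_cases h2 : q = 2
  · subst h2
    obtain ⟨M, hM, τ, z, hτ, hker, hz, hzo⟩ := exists_elementary_quotient hσ hqd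
    exact no_kernel_two hτ hz hzo hker
  obtain ⟨⟨z, hz⟩, hzo⟩ := exists_prime_orderOf_dvd_card' q hqd
  rw [← Subgroup.orderOf_coe] at hzo
  obtain ⟨S⟩ := Sylow.nonempty (p := q) (G := Q3 F)
  have hc : Nat.card (Q3 F) = 50232960 := card_J3
  refine stem_false_cyclic hσ S ?_ hz hzo
  by_cases hd : q ∣ 50232960
  · have hmem : q = 5 ∨ q = 17 ∨ q = 19 := by
      rw [show (50232960 : ℕ) = 2 ^ 7 * 3 ^ 5 * 5 * 17 * 19 by norm_num] at hd
      have hp : ∀ {r : ℕ}, r.Prime → q ∣ r → q = r := fun hr h => (Nat.prime_dvd_prime_iff_eq hq hr).1 h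
      rcases (Nat.Prime.dvd_mul hq).1 hd with h | h
      rotate_left
      · exact Or.inr (Or.inr (hp (by norm_num) h))
      rcases (Nat.Prime.dvd_mul hq).1 h with h | h
      rotate_left
      · exact Or.inr (Or.inl (hp (by norm_num) h))
      rcases (Nat.Prime.dvd_mul hq).1 h with h | h
      rotate_left
      · exact Or.inl (hp (by norm_num) h)
      rcases (Nat.Prime.dvd_mul hq).1 h with h | h
      · exact absurd (hp Nat.prime_two (hq.dvd_of_dvd_pow h)) h2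
      · exact absurd (hp Nat.prime_three (hq.dvd_of_dvd_pow h)) h3
    have hnd : ¬ q ^ (1 + 1) ∣ 50232960 := by rcases hmem with rfl | rfl | rfl <;> norm_num
    exact isCyclic_of_prime_card (p := q) (by
      rw [FGS2.J2.SchurTwoClass.sylow_card hc hq (k := 1) (by rwa [pow_one]) hnd S, pow_one])
  · have h0 := FGS2.J2.SchurTwoClass.sylow_card hc hq (k := 0) (by simp) (by rwa [pow_one]) S
    rw [pow_zero] at h0
    haveI : Subsingleton (S : Subgroup (Q3 F)) := (Nat.card_eq_one_iff_unique.1 h0).1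
    infer_instance

theorem cover_stem : ∃ σ : G3 F →* Q3 F, Cfsg.IsStemExtension σ ∧ Nat.card σ.ker = 3 := by
  have hk : (QuotientGroup.mk' (Subgroup.center (G3 F))).ker = Subgroup.center (G3 F) := QuotientGroup.ker_mk' _
  refine ⟨QuotientGroup.mk' (Subgroup.center (G3 F)),
    ⟨QuotientGroup.mk'_surjective _, hk.le, ?_⟩, by rw [hk, card_center]⟩
  rw [hk]
  intro z hz
  obtain ⟨c, -, e⟩ := (center_iff z).1 hz
  let u : G3 F := ⟨sU F 3 (by norm_num), sU_mem 3 (by norm_num)⟩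
  let v : G3 F := ⟨sU F 21 (by norm_num), sU_mem 21 (by norm_num)⟩
  have e1 : ((⁅u, v⁆ : G3 F) : GL F9 F) = wU F := by
    rw [commutatorElement_def]
    simp only [Subgroup.coe_mul, Subgroup.coe_inv]
    apply mul_right_cancel (b := sU F 21 (by norm_num) * sU F 3 (by norm_num))
    simp only [u, v, mul_assoc, inv_mul_cancel_left, inv_mul_cancel, mul_one]
    rw [← pow_one (wU F)]
    apply um_inj
    rw [um_wU_mul, um_mul, um_mul]
    show mat F (sM 3) * mat F (sM 21) = (F4Data.w : F) ^ 1 • (mat F (sM 21) * mat F (sM 3))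
    rw [← mat_mul, ← mat_mul, misc.2.2.2.2.2.2.2.2.2.2.2.1, mat_sc (by norm_num)]
  have : z = ⁅u, v⁆ ^ c := Subtype.ext (by rw [e, SubmonoidClass.coe_pow, e1])
  rw [this]
  exact pow_mem (Subgroup.commutator_mem_commutator (Subgroup.mem_top u) (Subgroup.mem_top v)) c

/-- The Schur multiplier of `J₃` is cyclic of order three. -/
theorem schur_multiplier : Cfsg.HasCyclicSchurMultiplier (Q3 F) 3 := by
  haveI := fin_Q3 (F := F)
  refine ⟨?_, fun Γ _ _ σ hσ => ?_⟩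
  · haveI : Fact (Nat.Prime 3) := ⟨Nat.prime_three⟩
    obtain ⟨σ, hσ, hcard⟩ := cover_stem (F := F)
    haveI : Finite (G3 F) := Nat.finite_of_card_ne_zero (by rw [card_G3]; norm_num)
    refine ⟨G3 F, inferInstance, inferInstance, σ, hσ, ?_⟩
    haveI : IsCyclic σ.ker := isCyclic_of_prime_card (p := 3) hcard
    exact ⟨mulEquivOfCyclicCardEq (hcard.trans (Nat.card_zmod 3).symm)⟩
  · obtain ⟨a, b, g, P, D, hP⟩ := exists_three (F := F)
    obtain ⟨t, ht, hle⟩ := Three.kernel_le hσ D P hP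
    refine FGS2.exists_surj_zmod (fun x hx => ?_) ht
    have hpow : Nat.card σ.ker = 3 ^ (Nat.card σ.ker).primeFactorsList.length :=
      Nat.eq_prime_pow_of_unique_prime_dvd Nat.card_pos.ne' fun {q} hq hqd => ker_prime σ hσ hq hqd
    have hd : orderOf x ∣ 3 ^ (Nat.card σ.ker).primeFactorsList.length := by
      rw [← hpow, ← Subgroup.orderOf_mk x hx]
      exact orderOf_dvd_natCard _
    obtain ⟨n, -, hn⟩ := (Nat.dvd_prime_pow Nat.prime_three).1 hd
    exact hle x hx n hn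

end Cfsg.Agent.Janko3
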